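import Cfsg.Agent.H20.TheoremB.Group
import Mathlib

/-!
A unipotent element of small nilpotency degree centralises every subgroup of order prime to the characteristic
which it normalises.
-/

set_option autoImplicit false

namespace Cfsg.Agent.H1.OmegaNine.Tensor

open TensorProduct Cfsg.Agent.H20

/-- Hall–Higman: if `(ρ x - 1) ^ s = 0` with `s + 1 < p` then `x` centralises the `p'`-groups it normalises. -/
theorem commute_of_small_nilpotent {G : Type*} [Group G] [Finite G] {F V : Type*} [Field F] [AddCommGroup V]
    [Module F V] [FiniteDimensional F V] {p : ℕ} [Fact p.Prime] [CharP F p] (ρ : G →* Module.End F V)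
    (hinj : Function.Injective ρ) {N : Subgroup G} {x : G}
    (hxN : x ∈ Subgroup.normalizer (N : Set G)) (hN : ¬ p ∣ Nat.card N) (hx : x ^ p = 1) {s : ℕ}
    (hs : (ρ x - 1) ^ s = 0) (hps : s + 1 < p) : ∀ y ∈ N, x * y = y * x := by
  by_contra hcon
  push Not at hcon
  obtain ⟨y, hy, hxy⟩ := hcon
  obtain ⟨q, Q, F', hq, hqp, -, hxQ, hd, v, hv⟩ := TB.exists_data (n := 1) (x := x) (y := x) (N := N) hxN
    (((Fact.out : p.Prime).coprime_iff_not_dvd).2 hN).symm (by rw [pow_one]; exact hx)
    (Subgroup.mem_zpowers x) fun h => hxy ((Subgroup.mem_centralizer_singleton_iff.1 (h hy)).symm)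
  haveI := Fact.mk hq
  let k := AlgebraicClosure F
  haveI : CharP k p := charP_of_injective_algebraMap (algebraMap F k).injective p
  let ρK : G →* Module.End k (k ⊗[F] V) :=
    (Module.End.baseChangeHom F k V).toRingHom.toMonoidHom.comp ρ
  have hinjK : Function.Injective ρK := by
    intro a b hab
    refine hinj (LinearMap.ext fun w => ?_)
    have h1 := congrArg (fun f : Module.End k (k ⊗[F] V) => f ((1 : k) ⊗ₜ w)) hab
    change (1 : k) ⊗ₜ[F] (ρ a w) = 1 ⊗ₜ (ρ b w) at h1
    let bV := Module.Free.chooseBasis F V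
    apply bV.repr.injective
    refine Finsupp.ext fun i => (algebraMap F k).injective ?_
    have h3 := congrArg (fun u => (bV.baseChange k).repr u i) h1
    simp only [Module.Basis.baseChange_repr_tmul] at h3
    simpa [Algebra.smul_def] using h3
  let π := MonoidHom.toHomUnits ρK
  have hsK : (ρK x - 1) ^ s = 0 := by
    have h := congrArg (Module.End.baseChangeHom F k V) hs
    rw [map_pow, map_sub, map_one, map_zero] at h
    exact h
  rcases TB.main (k := k) hqp hd 1 Nat.one_pos x hxQ (by rw [pow_one]; exact hx)
      (by rw [Nat.sub_self, pow_zero, pow_one]) (π.comp Q.subtype) (π x)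
      (fun b => by
        show π x * π b = π (x * b * x⁻¹) * π x
        rw [← map_mul, ← map_mul, inv_mul_cancel_right])
      ⟨v, fun h => hv (Subtype.ext (hinjK ((congrArg Units.val h).trans (map_one ρK).symm)))⟩ s hsK with h | h
  · rw [pow_one] at h
    omega
  · obtain ⟨j, D, hj, hD, -, -, -, hle⟩ := h
    obtain rfl : j = 0 := by omega
    rw [Nat.sub_zero, pow_one] at hD
    rw [pow_zero, one_mul] at hle
    omega

end Cfsg.Agent.H1.OmegaNine.Tensor
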