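import Cfsg.Agent.H1.OmegaNine.Tensor.Setting
import Cfsg.Agent.H1.OmegaNine.Tensor.Unipotent

/-!
The centraliser of an involution of one factor consists of pure elements.
-/

set_option autoImplicit false
set_option linter.unusedSectionVars false

namespace Cfsg.Agent.H1.OmegaNine.Tensor

open QuadraticMap hiding sq
open Cfsg.Agent.H5 Cfsg.Agent.H19.OrthTensor Module

section general

variable {F V : Type*} [Field F] [Finite F] [AddCommGroup V] [Module F V] [Finite V]
  [FiniteDimensional F V] {Q : QuadraticForm F V}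

/-- The fixed vectors of `tvec` lie on the line of the vector. -/
theorem mem_line_of_tvec_fixed (h2 : (2 : F) ≠ 0) {a z : V} (ha : Q a ≠ 0)
    (hz : (tvec Q a : V ≃ₗ[F] V) z = z) : z = (polar Q a z / (2 * Q a)) • a := by
  set c := polar Q a z / (2 * Q a) with hc
  have hzc : polar Q a (z - c • a) = 0 := by
    rw [polar_sub_right, polar_smul_right, polar_self', hc, smul_eq_mul,
      div_mul_cancel₀ _ (mul_ne_zero h2 ha), sub_self]
  have h1 : (tvec Q a : V ≃ₗ[F] V) ((z - c • a) + c • a) = -(z - c • a) + c • a := by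
    rw [map_add, tvec_perp hzc, map_smul, tvec_self ha]
  rw [sub_add_cancel, hz] at h1
  have h3 : (2 : F) • (z - c • a) = 0 := by linear_combination (norm := module) h1
  exact sub_eq_zero.1 ((smul_eq_zero.1 h3).resolve_left h2)

/-- An element commuting with `tvec` preserves the line. -/
theorem line_of_comm_tvec (h2 : (2 : F) ≠ 0) {g : orth Q} {a : V} (ha : Q a ≠ 0)
    (hc : g * tvec Q a = tvec Q a * g) : ∃ c : F, (g : V ≃ₗ[F] V) a = c • a := by
  refine ⟨_, mem_line_of_tvec_fixed h2 ha ?_⟩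
  rw [← orth_mul_apply, ← hc, orth_mul_apply, tvec_self ha]

/-- In dimension three only the identity is unipotent and commutes with `tvec`. -/
theorem eq_one_of_comm_tvec {p : ℕ} [Fact p.Prime] [CharP F p] (hQ : (polarBilin Q).Nondegenerate)
    (h2 : (2 : F) ≠ 0) (h3 : finrank F V = 3) {g : orth Q} {n : ℕ} (hg : g ^ p ^ n = 1) {a : V}
    (ha : Q a ≠ 0) (hc : g * tvec Q a = tvec Q a * g) : g = 1 := by
  by_contra hne
  obtain ⟨c, hga⟩ := line_of_comm_tvec h2 ha hc
  have hga' := fixed_of_eigen hg hga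
  obtain ⟨e, η, he0, he, hη, -, rfl⟩ := exists_eich_of_unipotent hQ h2 (lineAniso_three hQ h3) hne hg
  have hf := finrank_fixer_three h3 (dick_omega hQ h2 (eich_mem_omega hQ h2 e η)) hne
  obtain ⟨t, ht⟩ := (finrank_eq_one_iff_of_nonzero'
    (⟨e, mem_fixer.2 (eich_apply_self he hη)⟩ : fixer (eich Q e η))
    (fun h0 => he0 (congrArg Subtype.val h0))).1 hf ⟨a, mem_fixer.2 hga'⟩
  have ht' : t • e = a := congrArg Subtype.val ht
  exact ha (by rw [← ht', QuadraticMap.map_smul, he, smul_zero])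

/-- The dimension of a complement of a hyperbolic pair in dimension three. -/
theorem card_pperp_three (hQ : (polarBilin Q).Nondegenerate) (h3 : finrank F V = 3) {e h : V}
    (hh : HypPair Q e h) : Nat.card (pperp Q e h) = Nat.card F := by
  have hd := hh.finrank_pperp hQ
  haveI := Module.Free.of_divisionRing F (pperp Q e h)
  rw [Module.natCard_eq_pow_finrank (K := F), show finrank F (pperp Q e h) = 1 by omega, pow_one]

end general

variable {F V A B : Type*} [Field F] [Finite F] [AddCommGroup V] [Module F V] [Finite V]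
  [FiniteDimensional F V] [AddCommGroup A] [Module F A] [Finite A] [FiniteDimensional F A]
  [AddCommGroup B] [Module F B] [Finite B] [FiniteDimensional F B]
  {Q : QuadraticForm F V} {QA : QuadraticForm F A} {QB : QuadraticForm F B}
  {pu : A →ₗ[F] B →ₗ[F] V}

namespace Sq

variable {T : TO Q QA QB pu} {Wσ : Sw T} {M : Subgroup (orth Q)} (S : Sq T Wσ M)
include S

theorem rootB_mem {e : B} (he : QB e = 0) : T.rootB he ≤ M := by
  rintro _ ⟨η, -, rfl⟩
  exact S.hOver.right _ (eich_mem_omega T.ndB T.two e η)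

theorem dec_pow {g : orth QA} {k : orth QB} (hg : dick g = 1) {N : ℕ}
    (h : T.pr (g, k) ^ N = 1) : g ^ N = 1 ∧ k ^ N = 1 := by
  have hd : ∀ m : ℕ, dick (g ^ m) = 1 := fun m => by
    induction m with
    | zero => rw [pow_zero, dick_one]
    | succ m ih => rw [pow_succ, dick_mul_odd T.ndA T.two, ih, hg, one_mul]
  refine T.eq_one_of_pr S.a3 (hd N) ?_ (by rw [S.b3]; omega)
  rw [show ((g ^ N, k ^ N) : orth QA × orth QB) = (g, k) ^ N from rfl, map_pow, h]

theorem dec_commute {g g' : orth QA} {k k' : orth QB} (hg : dick g = 1) (hg' : dick g' = 1)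
    (h : T.pr (g, k) * T.pr (g', k') = T.pr (g', k') * T.pr (g, k)) :
    g * g' = g' * g ∧ k * k' = k' * k := by
  rw [← map_mul, ← map_mul] at h
  exact S.pr_inj (by rw [dick_mul_odd T.ndA T.two, hg, hg', mul_one])
    (by rw [dick_mul_odd T.ndA T.two, hg, hg', mul_one]) h

/-- Conjugating a root element of the second factor to one forces purity. -/
theorem pure_B {e η e' η' : B} (he0 : e ≠ 0) (he : QB e = 0) (hη : polar QB e η = 0)
    (hQη : QB η ≠ 0) (he'0 : e' ≠ 0) (he' : QB e' = 0) (hη' : polar QB e' η' = 0) {m : orth Q}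
    (hm : m ∈ M) (hc : m * T.kR (eich QB e η) * m⁻¹ = T.kR (eich QB e' η')) : m ∈ T.PG :=
  S.mem_PG (T.pure_of_conj S.hOver S.good S.std S.hA S.hB S.q5
    he he0 hη hQη he' he'0 hη' hm hc)

/-- An element carrying a root element of the second factor to a pure element commuting with an involution
of the first factor is pure. -/
theorem pure_of_root_comm {a : A} (ha : QA a ≠ 0) {e η : B} (he0 : e ≠ 0) (he : QB e = 0)
    (hη : polar QB e η = 0) (hQη : QB η ≠ 0) {m : orth Q} (hm : m ∈ M)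
    (hP : m * T.kR (eich QB e η) * m⁻¹ ∈ T.PG)
    (hc : m * T.kR (eich QB e η) * m⁻¹ * T.kL (tvec QA a) =
      T.kL (tvec QA a) * (m * T.kR (eich QB e η) * m⁻¹)) : m ∈ T.PG := by
  obtain ⟨p, hp, hcp⟩ := exists_char F
  obtain ⟨g, k, hg, hgk⟩ := S.dec hP
  obtain ⟨hgp, hkp⟩ := S.dec_pow hg (N := p ^ 1) (by
    rw [← hgk, conj_pow, pow_one, ← map_pow, eich_pow_char he hη, map_one, mul_one, mul_inv_cancel])
  have hgs : g * tvec QA a = tvec QA a * g := by
    refine (S.dec_commute hg (dick_tvec T.ndA T.two S.a3 ha) (k := k) (k' := 1) ?_).1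
    rw [T.pr_apply (tvec QA a), map_one, mul_one, ← hgk]
    exact hc
  obtain rfl := eq_one_of_comm_tvec T.ndA T.two S.a3 hgp ha hgs
  have hk1 : k ≠ 1 := by
    intro h0
    rw [h0, Prod.mk_one_one, map_one, conj_eq_one_iff] at hgk
    exact eich_ne_one T.two he0 he hη T.ndB hQη (T.kR_injective (by rw [S.a3]; omega)
      (by rw [hgk, map_one]))
  obtain ⟨e', η', he'0, he', hη', -, rfl⟩ :=
    exists_eich_of_unipotent T.ndB T.two (lineAniso_three T.ndB S.b3) hk1 hkp
  refine S.pure_B he0 he hη hQη he'0 he' hη' hm ?_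
  rw [hgk, T.pr_apply, map_one, one_mul]

theorem rootB_inj {e h : B} (hh : HypPair QB e h) :
    Function.Injective fun w : pperp QB e h => T.kR (eich QB e (w : B)) := fun w w' hw =>
  Subtype.ext (pperp_eich_injective hh w.2 w'.2 (T.kR_injective (by rw [S.a3]; omega) hw))

/-- The root group is not cyclic when the field is not of prime order. -/
theorem rootB_not_cyclic {p : ℕ} [hp : Fact p.Prime] [CharP F p] (hq : Nat.card F ≠ p) {e : B}
    (he0 : e ≠ 0) (he : QB e = 0) : ¬ IsCyclic (T.rootB he) := by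
  intro hcyc
  obtain ⟨h, hh⟩ := exists_hypPair (Q := QB) T.ndB he0 he
  let f : pperp QB e h → T.rootB he := fun w =>
    ⟨T.kR (eich QB e w), w, (mem_pperp.1 w.2).1, rfl⟩
  have hf : Function.Injective f := fun w w' hw => S.rootB_inj hh (congrArg Subtype.val hw)
  obtain ⟨⟨g, η, hη, rfl⟩, hg⟩ := hcyc.exists_generator
  have hord : ∀ x : T.rootB he, x ^ p = 1 := fun x => by
    obtain ⟨m, η, hη, rfl⟩ := x
    refine Subtype.ext ?_
    show T.kR (eich QB e η) ^ p = 1
    rw [← map_pow, eich_pow_char he hη, map_one]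
  have h1 : Nat.card (T.rootB he) ≤ p := by
    rw [← orderOf_eq_card_of_forall_mem_zpowers hg]
    exact Nat.le_of_dvd hp.out.pos (orderOf_dvd_of_pow_eq_one (hord _))
  have h2 := Nat.card_le_card_of_injective f hf
  rw [card_pperp_three T.ndB S.b3 hh] at h2
  haveI := Fintype.ofFinite F
  obtain ⟨⟨k, hk0⟩, -, hk⟩ := FiniteField.card F p
  rw [Nat.card_eq_fintype_card (α := F), hk] at h2 hq
  have : p ^ 1 ≤ p ^ k := Nat.pow_le_pow_right hp.out.pos hk0
  rw [pow_one] at this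
  exact hq (le_antisymm (h2.trans h1) this)

/-- An element of the centraliser acts on the fixed layer. -/
theorem exists_restrict {a : A} (ha : QA a ≠ 0) {x : orth Q}
    (hx : x * T.kL (tvec QA a) = T.kL (tvec QA a) * x) :
    ∃ K : orth QB, ∀ u, (x : V ≃ₗ[F] V) (pu a u) = pu a ((K : B ≃ₗ[F] B) u) := by
  let K₀ : B →ₗ[F] B := (2 * QA a)⁻¹ • (T.C' a).comp (((x : V ≃ₗ[F] V) : V →ₗ[F] V).comp (pu a))
  have hK₀ : ∀ u, (x : V ≃ₗ[F] V) (pu a u) = pu a (K₀ u) := by
    intro u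
    set v := (x : V ≃ₗ[F] V) (pu a u) with hv
    have hsv : (T.kL (tvec QA a) : V ≃ₗ[F] V) v = v := by
      rw [hv, ← orth_mul_apply, ← hx, orth_mul_apply, T.kL_pu, tvec_self ha]
    rw [← sub_eq_zero]
    refine T.eq_zero_of_C fun ζ => ?_
    have h1 : (tvec QA a : A ≃ₗ[F] A) (T.C ζ v) = T.C ζ v := by rw [← T.C_kL, hsv]
    set c := polar QA a (T.C ζ v) / (2 * QA a) with hc
    have hz : T.C ζ v = c • a := mem_line_of_tvec_fixed T.two ha h1
    have h4 : polar QB (K₀ u) ζ = c := by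
      simp only [K₀, LinearMap.smul_apply, LinearMap.comp_apply, LinearEquiv.coe_coe, polar_smul_left,
        T.adj']
      rw [← hv, ← T.adj, smul_eq_mul, hc, polar_comm, div_eq_inv_mul]
    rw [map_sub, T.C_pu, hz, h4, sub_self]
  have hinj : Function.Injective K₀ := by
    refine (injective_iff_map_eq_zero _).2 fun u hu => T.pu_eq_zero_right (x := a) ?_
      (fun h0 => ha (by rw [h0, QuadraticMap.map_zero]))
    apply (x : V ≃ₗ[F] V).injective
    rw [hK₀, hu, map_zero, map_zero]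
  refine ⟨⟨LinearEquiv.ofBijective K₀ ⟨hinj, Finite.surjective_of_injective hinj⟩, fun u => ?_⟩,
    hK₀⟩
  have h1 := orth_map x (pu a u)
  rw [hK₀, T.Q_pu, T.Q_pu] at h1
  exact mul_left_cancel₀ ha (mul_left_cancel₀ T.two h1)

/-- The cube of a root element minus one vanishes. -/
theorem root_cube {e η : B} (he : QB e = 0) (hη : polar QB e η = 0) :
    ((((T.kR (eich QB e η) : orth Q) : V ≃ₗ[F] V) : V →ₗ[F] V) - 1 : Module.End F V) ^ 3 = 0 := by
  set D : Module.End F V := (((T.kR (eich QB e η) : orth Q) : V ≃ₗ[F] V) : V →ₗ[F] V) - 1 with hD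
  have hD' : ∀ v, D v = (T.kR (eich QB e η) : V ≃ₗ[F] V) v - v := fun v => rfl
  have hk : ∀ u, (eich QB e η : B ≃ₗ[F] B) u =
      u + polar QB e u • η - polar QB η u • e - (QB η * polar QB e u) • e := fun u => by
    rw [eich_apply he hη]
  have hpu : ∀ x u, D (pu x u) = pu x ((eich QB e η : B ≃ₗ[F] B) u - u) := fun x u => by
    rw [hD', T.kR_pu, map_sub]
  refine T.ext_pu fun x u => ?_
  rw [pow_succ, pow_two, Module.End.mul_apply, Module.End.mul_apply, hpu, hpu, hpu,
    LinearMap.zero_apply]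
  suffices h : ∀ u, (eich QB e η : B ≃ₗ[F] B) ((eich QB e η : B ≃ₗ[F] B) ((eich QB e η : B ≃ₗ[F] B) u - u) -
      ((eich QB e η : B ≃ₗ[F] B) u - u)) -
      ((eich QB e η : B ≃ₗ[F] B) ((eich QB e η : B ≃ₗ[F] B) u - u) -
        ((eich QB e η : B ≃ₗ[F] B) u - u)) = 0 by
    rw [h, map_zero]
  intro u
  have e1 : (eich QB e η : B ≃ₗ[F] B) e = e := eich_apply_self he hη
  have e2 : (eich QB e η : B ≃ₗ[F] B) η = η - (2 * QB η) • e := by
    rw [hk, hη, polar_self', zero_smul, mul_zero, zero_smul, add_zero, sub_zero]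
  rw [hk u]
  simp only [map_sub, map_add, map_smul, e1, e2, hk u]
  module

/-- The centraliser in `M` of an involution of the first factor is pure. -/
theorem centralizer_tvec {a : A} (ha : QA a ≠ 0) {m : orth Q} (hm : m ∈ M)
    (hc : m * T.kL (tvec QA a) = T.kL (tvec QA a) * m) : m ∈ T.PG := by
  obtain ⟨p, hp, hcp⟩ := exists_char F
  set s := T.kL (tvec QA a) with hs
  have hLB := lineAniso_three T.ndB S.b3
  obtain ⟨e, he0, he⟩ := H5.exists_singular (Q := QB) T.ndB S.hB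
  obtain ⟨h, hh⟩ := exists_hypPair (Q := QB) T.ndB he0 he
  obtain ⟨η₀, hη₀m, hQη₀⟩ := exists_anisotropic (hh.inf_perp T.ndB)
    (by have := hh.finrank_pperp T.ndB; rw [S.b3] at this; omega)
  have hη₀ := (mem_pperp.1 hη₀m).1
  set X := M ⊓ Subgroup.centralizer ({s} : Set (orth Q)) with hX
  have hXs : ∀ x ∈ X, x * s = s * x := fun x hx =>
    (Subgroup.mem_centralizer_iff.1 hx.2 s rfl).symm
  set U := T.rootB he
  have hUX : U ≤ X := by
    intro r hr
    refine ⟨S.rootB_mem he hr, Subgroup.mem_centralizer_iff.2 ?_⟩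
    rintro _ rfl
    obtain ⟨η, -, rfl⟩ := hr
    exact (T.kR_comm _ _).symm.eq
  have hr₀U : T.kR (eich QB e η₀) ∈ U := ⟨η₀, hη₀, rfl⟩
  have hcomm : ∀ x ∈ X, ∀ r ∈ X, x * r * x⁻¹ * s = s * (x * r * x⁻¹) := fun x hx r hr =>
    hXs _ (mul_mem (mul_mem hx hr) (inv_mem hx))
  have hn : ∀ n ∈ X, (∃ k : ℕ, n ^ p ^ k = 1) → (∀ u, u ∈ U ↔ n * u * n⁻¹ ∈ U) → n ∈ U := by
    rintro n hnX ⟨j, hj⟩ hnU
    obtain ⟨η', hη', hke⟩ := (hnU _).1 hr₀U
    have hnP : n ∈ T.PG := S.pure_of_root_comm ha he0 he hη₀ hQη₀ hnX.1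
      (by rw [hke]; exact T.kR_mem_PG _) (hcomm n hnX _ (hUX hr₀U))
    obtain ⟨g, k, hg, rfl⟩ := S.dec hnP
    obtain ⟨hgp, hkp⟩ := S.dec_pow hg hj
    have hgs : g * tvec QA a = tvec QA a * g := by
      refine (S.dec_commute hg (dick_tvec T.ndA T.two S.a3 ha) (k := k) (k' := 1) ?_).1
      rw [T.pr_apply (tvec QA a), map_one, mul_one]
      exact hXs _ hnX
    obtain rfl := eq_one_of_comm_tvec T.ndA T.two S.a3 hgp ha hgs
    have hconj : k * eich QB e η₀ * k⁻¹ = eich QB e η' := by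
      refine T.kR_injective (by rw [S.a3]; omega) ?_
      rw [← hke, T.pr_apply, map_one, one_mul, map_mul, map_mul, map_inv]
    rw [eich_conj] at hconj
    have hke' : (k : B ≃ₗ[F] B) e ∈ Submodule.span F {e} := by
      have hkη : polar QB ((k : B ≃ₗ[F] B) e) ((k : B ≃ₗ[F] B) η₀) = 0 := by
        rw [orth_polar, hη₀]
      have hQη' : QB η' ≠ 0 := fun h0 => by
        rw [eich_eq_one_of_singular T.ndB hLB he0 he hη' h0] at hconj
        exact eich_ne_one T.two (fun h1 => he0 ((k : B ≃ₗ[F] B).injective (by rw [h1, map_zero])))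
          (by rw [orth_map, he]) hkη T.ndB (by rw [orth_map]; exact hQη₀) hconj
      refine mem_span_of_eich_fixed T.ndB T.two hLB he0 he hη' hQη' (by rw [orth_map, he]) ?_
      rw [← hconj]
      exact eich_apply_self (by rw [orth_map, he]) hkη
    obtain ⟨c, hc⟩ := Submodule.mem_span_singleton.1 hke'
    obtain ⟨η, hη, rfl⟩ := eich_of_fixed T.ndB T.two hLB hkp he0 he (fixed_of_eigen hkp hc.symm)
    exact ⟨η, hη, by rw [T.pr_apply, map_one, one_mul]⟩
  obtain ⟨P, hP⟩ := exists_sylow_eq hUX (T.rootB_pGroup he) hn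
  let N : Subgroup (orth Q) :=
    { carrier := {x | x ∈ X ∧ ∀ u, (x : V ≃ₗ[F] V) (pu a u) = pu a u}
      one_mem' := ⟨one_mem _, fun u => rfl⟩
      mul_mem' := fun {x y} hx hy => ⟨mul_mem hx.1 hy.1, fun u => by rw [orth_mul_apply, hy.2, hx.2]⟩
      inv_mem' := fun {x} hx => ⟨inv_mem hx.1, fun u => by
        conv_lhs => rw [← hx.2 u, orth_inv_apply_apply]⟩ }
  have hNX : N ≤ X := fun x hx => hx.1
  have hNn : ∀ x ∈ X, ∀ y ∈ N, x * y * x⁻¹ ∈ N := by
    intro x hx y hy
    refine ⟨mul_mem (mul_mem hx hy.1) (inv_mem hx), fun u => ?_⟩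
    obtain ⟨K, hK⟩ := S.exists_restrict ha (hXs x⁻¹ (inv_mem hx))
    rw [orth_mul_apply, orth_mul_apply, hK, hy.2, ← hK, orth_apply_inv_apply]
  have hNU : ∀ y ∈ N, y ∈ U → y = 1 := by
    rintro _ hy ⟨η, hη, rfl⟩
    have h1 : eich QB e η = 1 := orth_ext fun u => by
      have h2 := hy.2 u
      rw [T.kR_pu] at h2
      refine sub_eq_zero.1 (T.pu_eq_zero_right (x := a) ?_
        (fun h0 => ha (by rw [h0, QuadraticMap.map_zero])))
      rw [map_sub, h2]
      exact sub_self _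
    rw [h1, map_one]
  have hNp : ¬ p ∣ Nat.card N := not_dvd_of_inf_eq_bot hP hNX hNn hNU
  have hNP : N ≤ T.PG := by
    have hpureU : ∀ η, polar QB e η = 0 → QB η ≠ 0 → ∀ y ∈ N,
        T.kR (eich QB e η) * y = y * T.kR (eich QB e η) → y ∈ T.PG := by
      intro η hη hQη y hy hwy
      refine S.pure_B he0 he hη hQη he0 he hη hy.1.1 ?_
      rw [← hwy, mul_inv_cancel_right]
    by_cases hq : Nat.card F = p
    · intro y hy
      refine hpureU η₀ hη₀ hQη₀ y hy ?_
      let ρ : orth Q →* Module.End F V :=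
        { toFun := fun g => ((g : V ≃ₗ[F] V) : V →ₗ[F] V)
          map_one' := rfl
          map_mul' := fun _ _ => rfl }
      refine commute_of_small_nilpotent (p := p) (s := 3) ρ (fun g g' hg => orth_ext fun v =>
        LinearMap.congr_fun hg v) ?_ hNp ?_ (S.root_cube he hη₀) (by have := S.q5; omega) y hy
      · rw [Subgroup.mem_normalizer_iff]
        refine fun z => ⟨hNn _ (hUX hr₀U) z, fun hz => ?_⟩
        have := hNn _ (inv_mem (hUX hr₀U)) _ hz
        simpa [mul_assoc] using this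
      · rw [← map_pow, eich_pow_char he hη₀, map_one]
    · refine le_of_coprime_centralizers (p := p) (W := U) ?_ (T.rootB_pGroup he)
        (S.rootB_not_cyclic hq he0 he) (fun w hw y hy => hNn w (hUX hw) y hy)
        hNp fun w hw hw1 y hy hwy => ?_
      · rintro _ ⟨η, hη, rfl⟩ _ ⟨η', hη', rfl⟩
        rw [← map_mul, ← map_mul, eich_comm he hη hη']
      · obtain ⟨η, hη, rfl⟩ := hw
        exact hpureU η hη (fun h0 => hw1 (by
          rw [eich_eq_one_of_singular T.ndB hLB he0 he hη h0, map_one])) y hy hwy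
  obtain ⟨K, hK⟩ := S.exists_restrict ha hc
  obtain ⟨k, hk, t, ht, hkt⟩ := exists_pairGroup_map T.ndB S.hB hh
    (x := (K : B ≃ₗ[F] B) e) (fun h0 => he0 ((K : B ≃ₗ[F] B).injective (by rw [h0, map_zero])))
    (by rw [orth_map, he])
  have hkM : T.kR k ∈ M := S.hOver.right k (pairGroup_le_omega T.ndB T.two _ _ hk)
  set m₁ := T.kR k * m
  have hm₁X : m₁ ∈ X := ⟨mul_mem hkM hm, Subgroup.mem_centralizer_iff.2 (by
    rintro _ rfl
    rw [← mul_assoc, ← (T.kR_comm k (tvec QA a)).eq, mul_assoc, hc.symm, ← mul_assoc])⟩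
  obtain ⟨K', hK'e⟩ : ∃ K' : orth QB, K' = k * K := ⟨_, rfl⟩
  have hK' : ∀ u, (m₁ : V ≃ₗ[F] V) (pu a u) = pu a ((K' : B ≃ₗ[F] B) u) := fun u => by
    rw [orth_mul_apply, hK, T.kR_pu, hK'e, orth_mul_apply]
  have hm₁ : m₁ ∈ T.PG := by
    have hte : (K' : B ≃ₗ[F] B) e = t • e := by rw [hK'e, orth_mul_apply, hkt]
    have hKη : polar QB e ((K' : B ≃ₗ[F] B) η₀) = 0 := by
      have h1 := orth_polar K' e η₀
      rw [hte, polar_smul_left, hη₀, smul_eq_mul] at h1
      exact (mul_eq_zero.1 h1).resolve_left ht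
    have hη'' : polar QB e (t • (K' : B ≃ₗ[F] B) η₀) = 0 := by rw [polar_smul_right, hKη, smul_zero]
    set r' := T.kR (eich QB e (t • (K' : B ≃ₗ[F] B) η₀))
    have hr'U : r' ∈ U := ⟨_, hη'', rfl⟩
    have hy : m₁ * T.kR (eich QB e η₀) * m₁⁻¹ * r'⁻¹ ∈ N := by
      refine ⟨mul_mem (mul_mem (mul_mem hm₁X (hUX hr₀U)) (inv_mem hm₁X))
        (inv_mem (hUX hr'U)), fun u => ?_⟩
      obtain ⟨w, rfl⟩ := (K' : B ≃ₗ[F] B).surjective
        ((((eich QB e (t • (K' : B ≃ₗ[F] B) η₀))⁻¹ : orth QB) : B ≃ₗ[F] B) u) |>.imp fun _ h =>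
          show u = (eich QB e (t • (K' : B ≃ₗ[F] B) η₀) : B ≃ₗ[F] B) ((K' : B ≃ₗ[F] B) _) by
            rw [h, orth_apply_inv_apply]
      rw [orth_mul_apply, show r'⁻¹ = T.kR (eich QB e (t • (K' : B ≃ₗ[F] B) η₀))⁻¹ from (map_inv _ _).symm,
        T.kR_pu, orth_inv_apply_apply, orth_mul_apply, orth_mul_apply, ← hK', orth_inv_apply_apply,
        T.kR_pu, hK', ← orth_mul_apply, ← eich_smul_smul he hKη, ← hte, ← eich_conj, orth_mul_apply,
        orth_mul_apply, orth_inv_apply_apply]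
      rfl
    refine S.pure_of_root_comm ha he0 he hη₀ hQη₀ hm₁X.1 ?_ (hcomm _ hm₁X _ (hUX hr₀U))
    have := mul_mem (hNP hy) (T.kR_mem_PG (eich QB e (t • (K' : B ≃ₗ[F] B) η₀)))
    rwa [inv_mul_cancel_right] at this
  have := mul_mem (T.PG.inv_mem (T.kR_mem_PG k)) hm₁
  rwa [← mul_assoc, inv_mul_cancel, one_mul] at this

/-- An element carrying a rotation of the first factor to one with the same axis is pure. -/
theorem mem_PG_of_rot {g g' : orth QA} (hg : dick g = 1) (hg1 : g ≠ 1)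
    (hfix : ∀ x, (g : A ≃ₗ[F] A) x = x → (g' : A ≃ₗ[F] A) x = x) {y : orth Q} (hy : y ∈ M)
    (hc : T.kL g * y = y * T.kL g') : y ∈ T.PG := by
  obtain ⟨⟨a, haf⟩, ha0', hspan⟩ := finrank_eq_one_iff'.1 (finrank_fixer_three S.a3 hg hg1)
  have ha0 : a ≠ 0 := fun h => ha0' (Subtype.ext h)
  have hga : (g : A ≃ₗ[F] A) a = a := mem_fixer.1 haf
  obtain ⟨b, hb⟩ := exists_polar_eq_one (Q := QA) T.ndA ha0
  have hfixV : ∀ v, (T.kL g : V ≃ₗ[F] V) v = v → v = pu a (T.C' b v) := by
    intro v hv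
    rw [← sub_eq_zero]
    refine T.eq_zero_of_C fun ζ => ?_
    have h1 : (g : A ≃ₗ[F] A) (T.C ζ v) = T.C ζ v := by rw [← T.C_kL, hv]
    obtain ⟨c, hc⟩ := hspan ⟨_, mem_fixer.2 h1⟩
    have hc' : c • a = T.C ζ v := congrArg Subtype.val hc
    have h2 : polar QB (T.C' b v) ζ = c := by
      rw [T.adj', ← T.adj, ← hc', polar_smul_left, hb, smul_eq_mul, mul_one]
    rw [map_sub, T.C_pu, h2, hc', sub_self]
  let Tm : B →ₗ[F] B := (T.C' b).comp (((y : V ≃ₗ[F] V) : V →ₗ[F] V).comp (pu a))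
  have hmap : ∀ u, (y : V ≃ₗ[F] V) (pu a u) = pu a (Tm u) := fun u => hfixV _ (by
    rw [← orth_mul_apply, hc, orth_mul_apply, T.kL_pu, hfix a hga])
  by_cases ha : QA a = 0
  · obtain ⟨G, K, hGK⟩ := T.swap.pure_of_map_layer (TO.Over.swap T S.hOver) S.good' S.swap.std
      S.hB S.hA S.q5 ha ha0 ha0 hy (Tm := Tm) hmap
    exact S.mem_PG ⟨K, G, fun x u => hGK u x⟩
  refine S.centralizer_tvec ha hy ?_
  have hinj : Function.Injective Tm := by
    refine (injective_iff_map_eq_zero _).2 fun u hu => T.pu_eq_zero_right (x := a) ?_ ha0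
    apply (y : V ≃ₗ[F] V).injective
    rw [hmap, hu, map_zero, map_zero]
  have hperp : ∀ x, polar QA a x = 0 → ∀ u,
      (T.kL (tvec QA a) : V ≃ₗ[F] V) ((y : V ≃ₗ[F] V) (pu x u)) = -(y : V ≃ₗ[F] V) (pu x u) := by
    intro x hx u
    rw [← sub_eq_zero, sub_neg_eq_add]
    refine T.eq_zero_of_C fun ζ => ?_
    obtain ⟨w, rfl⟩ := Finite.surjective_of_injective hinj ζ
    have h1 : polar QA a (T.C (Tm w) ((y : V ≃ₗ[F] V) (pu x u))) = 0 := by
      rw [polar_comm, T.adj, ← hmap, orth_polar, T.form, polar_comm (⇑QA) x a, hx, zero_mul]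
    rw [map_add, T.C_kL, tvec_perp h1, neg_add_cancel]
  refine T.orth_ext_pu fun x u => ?_
  set c := polar QA a x / (2 * QA a) with hc'
  have hx : polar QA a (x - c • a) = 0 := by
    rw [polar_sub_right, polar_smul_right, polar_self', hc', smul_eq_mul,
      div_mul_cancel₀ _ (mul_ne_zero T.two ha), sub_self]
  have hsa : ∀ w, (T.kL (tvec QA a) : V ≃ₗ[F] V) (pu a w) = pu a w := fun w => by
    rw [T.kL_pu, tvec_self ha]
  rw [← sub_add_cancel x (c • a), map_add, map_smul, LinearMap.add_apply, LinearMap.smul_apply,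
    orth_mul_apply, orth_mul_apply]
  simp only [map_add, map_smul]
  rw [hsa, hmap, hsa, T.kL_pu, tvec_perp hx, map_neg, LinearMap.neg_apply, map_neg, hperp _ hx]

/-- In a coset, an involution is determined by the second component. -/
theorem fibre_inj {y₀ z z' : orth Q} (hz : z ∈ M) (hzP : z ∉ T.PG)
    (hz2 : z * z = 1) (hz2' : z' * z' = 1) {g g' : orth QA} {k : orth QB} (hg : dick g = 1)
    (hg' : dick g' = 1) (he : y₀ * z = T.pr (g, k)) (he' : y₀ * z' = T.pr (g', k)) : z = z' := by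
  set γ := g⁻¹ * g' with hγ
  have h1 : z * z' = T.kL γ := by
    calc z * z' = z⁻¹ * z' := by rw [inv_eq_of_mul_eq_one_right hz2]
      _ = (y₀ * z)⁻¹ * (y₀ * z') := by group
      _ = T.kL γ := by
        rw [he, he', ← map_inv, ← map_mul, Prod.inv_mk, Prod.mk_mul_mk, inv_mul_cancel, T.pr_apply,
          map_one, mul_one]
  have hd : dick γ = 1 := by
    have h2 : dick g⁻¹ * dick g = 1 := by rw [← dick_mul_odd T.ndA T.two, inv_mul_cancel, dick_one]
    rw [hγ, dick_mul_odd T.ndA T.two, hg', mul_one]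
    rwa [hg, mul_one] at h2
  by_contra hne
  refine hzP (S.mem_PG_of_rot (g := γ) (g' := γ⁻¹) hd (fun h0 => hne ?_) (fun x hx => ?_) hz ?_)
  · rw [h0, map_one] at h1
    rw [← inv_eq_of_mul_eq_one_right hz2, inv_eq_of_mul_eq_one_right h1]
  · conv_lhs => rw [← hx]
    rw [orth_inv_apply_apply]
  · rw [map_inv, ← h1, mul_inv_rev, inv_eq_of_mul_eq_one_right hz2, inv_eq_of_mul_eq_one_right hz2']
    group

end Sq

end Cfsg.Agent.H1.OmegaNine.Tensor
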