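import Cfsg.Agent.H1.OmegaNine.Tensor.Klein

/-!
The centraliser and the fusion of a product of two involutions, one from each factor.
-/

set_option autoImplicit false
set_option linter.unusedSectionVars false

namespace Cfsg.Agent.H1.OmegaNine.Tensor

open QuadraticMap hiding sq
open Cfsg.Agent.H5 Cfsg.Agent.H19.OrthTensor Module

section general

variable {F V : Type*} [Field F] [Finite F] [AddCommGroup V] [Module F V] [Finite V]
  [FiniteDimensional F V] {Q : QuadraticForm F V}

theorem tvec_smul {c : F} (hc : c ≠ 0) (u : V) : tvec Q (c • u) = tvec Q u := orth_ext fun x => by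
  by_cases hu : Q u = 0
  · simp [tvec, orth_mul_apply, refl_apply, QuadraticMap.map_smul, hu]
  simp only [tvec, orth_mul_apply, negOne_apply, refl_apply, QuadraticMap.map_smul, polar_smul_left,
    smul_eq_mul, smul_smul]
  congr 3
  field_simp

/-- Commuting `tvec`s have equal or orthogonal axes. -/
theorem tvec_comm_cases (h2 : (2 : F) ≠ 0) {a v : V} (ha : Q a ≠ 0) (hv : Q v ≠ 0)
    (hc : tvec Q v * tvec Q a = tvec Q a * tvec Q v) : tvec Q v = tvec Q a ∨ polar Q a v = 0 := by
  obtain ⟨t, ht⟩ := line_of_comm_tvec h2 hv hc.symm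
  set l := polar Q a v / (2 * Q a) with hl
  have hw : polar Q a (v - l • a) = 0 := by
    rw [polar_sub_right, polar_smul_right, polar_self', hl, smul_eq_mul,
      div_mul_cancel₀ _ (mul_ne_zero h2 ha), sub_self]
  have h1 : (tvec Q a : V ≃ₗ[F] V) v = -(v - l • a) + l • a := by
    conv_lhs => arg 2; rw [← sub_add_cancel v (l • a)]
    rw [map_add, tvec_perp hw, map_smul, tvec_self ha]
  rw [ht] at h1
  have h3 : (t + 1) • v = (2 * l) • a := by linear_combination (norm := module) h1
  by_cases hl0 : l = 0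
  · right
    rwa [hl, div_eq_zero_iff, or_iff_left (mul_ne_zero h2 ha)] at hl0
  · left
    have ha0 : a ≠ 0 := fun h => ha (by rw [h, QuadraticMap.map_zero])
    have ht0 : t + 1 ≠ 0 := fun h => by
      rw [h, zero_smul, eq_comm, smul_eq_zero] at h3
      exact h3.elim (mul_ne_zero h2 hl0) ha0
    have hva : v = ((t + 1)⁻¹ * (2 * l)) • a := by
      rw [mul_smul, ← h3, inv_smul_smul₀ ht0]
    rw [hva, tvec_smul (mul_ne_zero (inv_ne_zero ht0) (mul_ne_zero h2 hl0))]

theorem oFam_three {u v w : V} (hu : Q u ≠ 0) (hv : Q v ≠ 0) (hw : Q w ≠ 0) (huv : polar Q u v = 0)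
    (huw : polar Q u w = 0) (hvw : polar Q v w = 0) : OFam Q ![u, v, w] :=
  ⟨fun i => by fin_cases i <;> assumption, fun i j hij => by
    fin_cases i <;> fin_cases j <;>
      simp_all [polar_comm (⇑Q) v u, polar_comm (⇑Q) w u, polar_comm (⇑Q) w v]⟩

/-- Completing two orthogonal vectors to an orthogonal basis. -/
theorem exists_third (hQ : (polarBilin Q).Nondegenerate) (h2 : (2 : F) ≠ 0) (h3 : finrank F V = 3) {u v : V}
    (hu : Q u ≠ 0) (hv : Q v ≠ 0) (huv : polar Q u v = 0) : ∃ w, OFam Q ![u, v, w] := by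
  obtain ⟨w, hw, ho⟩ := (oFam_two hu hv huv).exists_perp_aniso hQ h2 (by omega)
  exact ⟨w, oFam_three hu hv hw huv (ho 0) (ho 1)⟩

/-- Some vector orthogonal to a given one has its involution in `Ω`. -/
theorem exists_perp_omega [Finite V] (hQ : (polarBilin Q).Nondegenerate) (h2 : (2 : F) ≠ 0)
    (h3 : finrank F V = 3) {v : V} (hv : Q v ≠ 0) :
    ∃ u, Q u ≠ 0 ∧ polar Q v u = 0 ∧ tvec Q u ∈ commutator (orth Q) := by
  obtain ⟨d, hd, hS⟩ := exists_tvec_mem hQ h2 (by rw [h3]; decide)
  obtain ⟨u, hu, ho⟩ := (oFam_one hv).exists_perp_norm hQ h2 (by omega) d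
  exact ⟨u, by rwa [hu], ho 0, hS u hu⟩

end general

/-- Conjugates of an involution in a dihedral group. -/
theorem dihedral_conj {G : Type*} [Group G] {t s : G} (ht : t * t = 1) (hs : s * s = 1) (m : ℕ) :
    (t * s) ^ m * s * ((t * s) ^ m)⁻¹ = (t * s) ^ (2 * m) * s := by
  have h1 : s * (t * s) * s⁻¹ = (t * s)⁻¹ := by
    rw [mul_inv_rev, inv_eq_of_mul_eq_one_right ht, inv_eq_of_mul_eq_one_right hs]
    calc s * (t * s) * s = s * t * (s * s) := by group
      _ = s * t := by rw [hs, mul_one]
  have h2 : s * (t * s) ^ m * s⁻¹ = ((t * s) ^ m)⁻¹ := by rw [← conj_pow, h1, inv_pow]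
  have h3 : s * ((t * s) ^ m)⁻¹ = (t * s) ^ m * s := by
    rw [← h2, inv_eq_of_mul_eq_one_right hs]
    calc s * (s * (t * s) ^ m * s) = s * s * ((t * s) ^ m * s) := by group
      _ = _ := by rw [hs, one_mul]
  rw [mul_assoc, h3, ← mul_assoc, ← pow_add, two_mul]

variable {F V A B : Type*} [Field F] [Finite F] [AddCommGroup V] [Module F V] [Finite V]
  [FiniteDimensional F V] [AddCommGroup A] [Module F A] [Finite A] [FiniteDimensional F A]
  [AddCommGroup B] [Module F B] [Finite B] [FiniteDimensional F B]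
  {Q : QuadraticForm F V} {QA : QuadraticForm F A} {QB : QuadraticForm F B}
  {pu : A →ₗ[F] B →ₗ[F] V}

namespace Sq

variable {T : TO Q QA QB pu} {Wσ : Sw T} {M : Subgroup (orth Q)} (S : Sq T Wσ M)
include S

set_option maxHeartbeats 800000 in
/-- The centraliser of a product of two involutions lies in the stabiliser. -/
theorem centralizer_pair {a : A} {b : B} (ha : QA a ≠ 0) (hb : QB b ≠ 0)
    (hSa : tvec QA a ∈ commutator (orth QA)) {x : orth Q} (hx : x ∈ M)
    (hc : x * T.pr (tvec QA a, tvec QB b) = T.pr (tvec QA a, tvec QB b) * x) : x ∈ Wσ.N := by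
  set d := T.pr (tvec QA a, tvec QB b) with hd
  set s₁ := T.kL (tvec QA a) with hs₁
  have hs₁M : s₁ ∈ M := S.kL_tvec_mem hSa
  set t := x * s₁ * x⁻¹ with ht
  by_contra hxN
  have htN : t ∉ Wσ.N := fun h => hxN (S.fusion_kL ha hs₁M hx h)
  have htP : t ∉ T.PG := fun h => htN (Wσ.le_N h)
  have htM : t ∈ M := mul_mem (mul_mem hx hs₁M) (inv_mem hx)
  have hda := dick_tvec T.ndA T.two S.a3 ha
  have hdd : d * d = 1 := by rw [hd, ← map_mul, Prod.mk_mul_mk, tvec_sq, tvec_sq, Prod.mk_one_one, map_one]
  have hds₁ : d * s₁ = s₁ * d := by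
    rw [hd, hs₁, show T.kL (tvec QA a) = T.pr (tvec QA a, 1) by rw [T.pr_apply, map_one, mul_one],
      ← map_mul, ← map_mul, Prod.mk_mul_mk, Prod.mk_mul_mk, mul_one, one_mul]
  have hdt : d * t = t * d := by
    have hcd : Commute d x := hc.symm
    exact ((hcd.mul_right hds₁).mul_right hcd.inv_right).eq
  have ht2 : t * t = 1 := by
    have : s₁ * s₁ = 1 := by rw [hs₁, ← map_mul, tvec_sq, map_one]
    calc t * t = x * (s₁ * s₁) * x⁻¹ := by rw [ht]; group
      _ = 1 := by rw [this, mul_one, mul_inv_cancel]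
  obtain ⟨u, hu, hau, hSu⟩ := exists_perp_omega T.ndA T.two S.a3 ha
  obtain ⟨a', hfa⟩ := exists_third T.ndA T.two S.a3 ha hu hau
  set s := T.kL (tvec QA u) with hs
  have hsM : s ∈ M := S.kL_tvec_mem hSu
  have hs2 : s * s = 1 := by rw [hs, ← map_mul, tvec_sq, map_one]
  have hcau : tvec QA a * tvec QA u = tvec QA u * tvec QA a := tvec_commute hfa 0 1
  have hds : Commute d s := by
    show d * s = s * d
    rw [hd, hs, show T.kL (tvec QA u) = T.pr (tvec QA u, 1) by rw [T.pr_apply, map_one, mul_one],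
      ← map_mul, ← map_mul, Prod.mk_mul_mk, Prod.mk_mul_mk, mul_one, one_mul, hcau]
  set ρ := t * s with hρ
  have hρM : ρ ∈ M := mul_mem htM hsM
  have hdρ : Commute d ρ := (show Commute d t from hdt).mul_right hds
  have hne_au : tvec QA a ≠ tvec QA u := fun h => by
    have h1 := tvec_perp (Q := QA) (u := a) (x := u) hau
    rw [h, tvec_self hu] at h1
    exact hu (by
      rw [(smul_eq_zero.1 (show (2 : F) • u = 0 by rw [two_smul]; nth_rw 1 [h1]; exact neg_add_cancel u)).resolve_left
        T.two, QuadraticMap.map_zero])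
  rcases (orderOf ρ).even_or_odd with ⟨k, hk⟩ | ⟨j, hj⟩
  swap
  · -- odd order: the two involutions are conjugate
    set c := ρ ^ (j + 1) with hcdef
    have hcs : c * s * c⁻¹ = t := by
      rw [hcdef, hρ, dihedral_conj ht2 hs2, show 2 * (j + 1) = 2 * j + 1 + 1 by ring, pow_succ, ← hρ,
        ← hj, pow_orderOf_eq_one, one_mul, hρ, mul_assoc, hs2, mul_one]
    set y := c⁻¹ * x with hy
    have hys : y * s₁ * y⁻¹ = s := by
      calc y * s₁ * y⁻¹ = c⁻¹ * t * c := by rw [hy, ht]; group
        _ = s := by rw [← hcs]; group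
    have hyM : y ∈ M := mul_mem (inv_mem (pow_mem hρM _)) hx
    have hyd : Commute d y := (hdρ.pow_right (j + 1)).inv_right.mul_right (show Commute d x from hc.symm)
    have hyN : y ∈ Wσ.N := S.fusion_kL ha hs₁M hyM (by rw [← hs₁, hys]; exact Wσ.le_N (T.kL_mem_PG _))
    by_cases hyP : y ∈ T.PG
    · obtain ⟨g, k, hg, hgk⟩ := S.dec hyP
      have hga := (S.dec_commute hg hda (k := k) (k' := tvec QB b) (by rw [← hgk, ← hd]; exact hyd.eq.symm)).1
      refine hne_au (T.swap.kR_injective (by rw [S.b3]; omega) ?_)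
      show T.kL (tvec QA a) = T.kL (tvec QA u)
      rw [← hs, ← hys, hs₁, hgk, T.pr_apply, mul_inv_rev]
      calc T.kL (tvec QA a) = T.kL (g * tvec QA a * g⁻¹) := by rw [hga, mul_inv_cancel_right]
        _ = T.kL g * (T.kR k * T.kL (tvec QA a) * (T.kR k)⁻¹) * (T.kL g)⁻¹ := by
            rw [(T.kR_comm k _).eq, mul_inv_cancel_right, map_mul, map_mul, map_inv]
        _ = _ := by group
    · obtain ⟨g₀, h₀, hconj⟩ := Wσ.conj_of_notMem hyN hyP
      have h1 := (hconj (tvec QA a)).1
      rw [← hs₁, hys, hs] at h1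
      have h2 : T.pr (tvec QA u, 1) = T.pr (1, h₀ * Wσ.toB (tvec QA a) * h₀⁻¹) := by
        rw [T.pr_apply, T.pr_apply, map_one, map_one, mul_one, one_mul, h1]
      exact tvec_ne_one T.ndA T.two S.a3 hu
        (S.pr_inj (dick_tvec T.ndA T.two S.a3 hu) dick_one h2).1
  · -- even order: the central involution of the dihedral group
    have hk0 : 0 < k := by have := orderOf_pos ρ; omega
    set z := ρ ^ k with hz
    have hz2 : z * z = 1 := by rw [hz, ← pow_add, ← hk, pow_orderOf_eq_one]
    have hz1 : z ≠ 1 := fun h => by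
      have := Nat.le_of_dvd hk0 (orderOf_dvd_of_pow_eq_one h)
      omega
    have hzM : z ∈ M := pow_mem hρM k
    have hzs : Commute z s := by
      show z * s = s * z
      have h1 := dihedral_conj ht2 hs2 k
      rw [← hρ, ← hz, show 2 * k = k + k by ring, ← hk, pow_orderOf_eq_one, one_mul,
        mul_inv_eq_iff_eq_mul] at h1
      exact h1
    have hzt : Commute z t := by
      have e : t = ρ * s := by rw [hρ, mul_assoc, hs2, mul_one]
      rw [e]
      exact ((Commute.refl ρ).pow_left k).mul_right hzs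
    have hzd : Commute d z := hdρ.pow_right k
    have hzP : z ∈ T.PG := S.centralizer_tvec hu hzM hzs.eq
    obtain ⟨g, k', hg, hgk⟩ := S.dec hzP
    have hk' : dick k' = 1 := ((S.pr_omega hg).1 (hgk ▸ S.hOmega hzM)).1
    obtain ⟨hg2, hk2⟩ := S.dec_pow hg (N := 2) (by rw [← hgk, pow_two, hz2])
    rw [pow_two] at hg2 hk2
    have htL : ∀ v, QA v ≠ 0 → Commute t (T.kL (tvec QA v)) → False := fun v hv hcm =>
      htP (S.centralizer_tvec hv htM hcm.eq)
    have htR : ∀ w, QB w ≠ 0 → Commute t (T.kR (tvec QB w)) → False := fun w hw hcm =>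
      htP (PG_swap T ▸ S.swap.centralizer_tvec hw htM hcm.eq)
    by_cases hg1 : g = 1
    · subst hg1
      obtain ⟨w, hw, rfl⟩ := exists_tvec_eq T.ndB T.two S.b3 hk' hk2 (fun h => hz1 (by
        rw [hgk, h, Prod.mk_one_one, map_one]))
      rw [T.pr_apply, map_one, one_mul] at hgk
      exact htR w hw (hgk ▸ hzt.symm)
    obtain ⟨v, hv, rfl⟩ := exists_tvec_eq T.ndA T.two S.a3 hg hg2 hg1
    by_cases hk1 : k' = 1
    · rw [hk1, T.pr_apply, map_one, mul_one] at hgk
      exact htL v hv (hgk ▸ hzt.symm)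
    obtain ⟨w, hw, rfl⟩ := exists_tvec_eq T.ndB T.two S.b3 hk' hk2 hk1
    have hzd' := hzd.eq
    rw [hgk, hd] at hzd'
    obtain ⟨hva, hwb⟩ := S.dec_commute hda hg hzd'
    have hzs' := hzs.eq
    rw [hgk, hs, show T.kL (tvec QA u) = T.pr (tvec QA u, 1) by rw [T.pr_apply, map_one, mul_one]] at hzs'
    have hvu := (S.dec_commute hg (dick_tvec T.ndA T.two S.a3 hu) hzs').1
    have hdzt : Commute t (d * z) := (show Commute t d from hdt.symm).mul_right hzt.symm
    rcases tvec_comm_cases T.two ha hv hva.symm with hv1 | hv1 <;>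
      rcases tvec_comm_cases T.two hb hw hwb.symm with hw1 | hw1
    · -- the involution is `d` itself
      rw [hv1, hw1, ← hd] at hgk
      rcases k.even_or_odd with ⟨i, hi⟩ | ⟨i, hi⟩
      swap
      · set c := ρ ^ (i + 1) with hcdef
        have hcs : c * s * c⁻¹ = d * t := by
          rw [hcdef, hρ, dihedral_conj ht2 hs2, show 2 * (i + 1) = 2 * i + 1 + 1 by ring, pow_succ, ← hρ,
            ← hi, ← hz, hgk, hρ, mul_assoc, mul_assoc t, hs2, mul_one]
        have hcd : Commute d c := hdρ.pow_right (i + 1)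
        have h6 : negDim (c * (d * s) * c⁻¹) = 6 := by
          have e : c * (d * s) * c⁻¹ = t := by
            calc c * (d * s) * c⁻¹ = (c * d) * s * c⁻¹ := by group
              _ = d * (c * s * c⁻¹) := by rw [← hcd.eq]; group
              _ = t := by rw [hcs, ← mul_assoc, hdd, one_mul]
          rw [e, ht, negDim_conj, hs₁, S.negDim_kL_tvec ha]
        have hds' : d * s = T.pr (tvec QA a', tvec QB b) := by
          rw [hd, hs, show T.kL (tvec QA u) = T.pr (tvec QA u, 1) by rw [T.pr_apply, map_one, mul_one],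
            ← map_mul, Prod.mk_mul_mk, mul_one,
            show tvec QA a * tvec QA u = tvec QA a' from tvec_mul_frame T.ndA T.two S.a3 hfa
              (i := 0) (j := 1) (k := 2) (by decide) (by decide) (by decide)]
        rw [negDim_conj, hds', S.negDim_pair (v := a') (hfa.ne 2) hb] at h6
        exact absurd h6 (by decide)
      · -- an element of order four
        set w4 := ρ ^ i with hw4
        have hw42 : w4 * w4 = d := by rw [hw4, ← pow_add, ← hi, ← hz, hgk]
        have hsw : s * w4 = d * w4 * s := by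
          have h1 : d * w4 = w4⁻¹ := eq_inv_of_mul_eq_one_left (by rw [mul_assoc, hw42, hdd])
          have h2 := dihedral_conj ht2 hs2 i
          rw [← hρ, ← hw4, show 2 * i = i + i by ring, pow_add, ← hw4, mul_inv_eq_iff_eq_mul] at h2
          rw [h1]
          calc s * w4 = (w4⁻¹ * w4⁻¹) * (w4 * w4 * s * w4) := by group
            _ = w4⁻¹ * s := by rw [← h2]; group
        obtain ⟨c₁, hc₁, hbc⟩ := (oFam_one hb).exists_perp_aniso T.ndB T.two (by rw [S.b3]; omega)
        obtain ⟨c₂, hfb⟩ := exists_third T.ndB T.two S.b3 hb hc₁ (hbc 0)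
        have himg : ∀ j : Fin 3, j ≠ 0 → ∃ α : F,
            (w4 : V ≃ₗ[F] V) (pu a (![b, c₁, c₂] j)) = α • pu u b := by
          intro j hj
          set x₀ := pu a (![b, c₁, c₂] j)
          have hsx : (s : V ≃ₗ[F] V) x₀ = -x₀ := by
            rw [hs, T.kL_pu, show (tvec QA u : A ≃ₗ[F] A) a = -a from
              tvec_perp (by rw [polar_comm]; exact hau), map_neg, LinearMap.neg_apply]
          have hdx : (d : V ≃ₗ[F] V) x₀ = -x₀ := by
            rw [hd, T.pr_pu, tvec_self ha, show (tvec QB b : B ≃ₗ[F] B) (![b, c₁, c₂] j) = -(![b, c₁, c₂] j) by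
              have := tvec_frame hfb 0 j
              rwa [if_neg hj.symm] at this, map_neg]
          set y := (w4 : V ≃ₗ[F] V) x₀
          have hdy : (d : V ≃ₗ[F] V) y = -y := by
            rw [← orth_mul_apply, (hdρ.pow_right i).eq, orth_mul_apply, hdx, map_neg]
          have hsy : (s : V ≃ₗ[F] V) y = y := by
            rw [← orth_mul_apply, hsw, orth_mul_apply, hsx, map_neg, orth_mul_apply, hdy, neg_neg]
          refine ⟨polar Q y (pu u b) / (2 * Q (pu u b)), sub_eq_zero.1 ?_⟩
          refine S.eq_zero_of_frames hfa hfb fun i' j' => ?_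
          have hQub : Q (pu u b) ≠ 0 := by
            rw [T.Q_pu]; exact mul_ne_zero T.two (mul_ne_zero hu hb)
          rw [polar_sub_left, polar_smul_left, smul_eq_mul, T.form u b]
          by_cases h10 : i' = 1 ∧ j' = 0
          · obtain ⟨rfl, rfl⟩ := h10
            show polar Q y (pu u b) - _ * (polar QA u u * polar QB b b) = 0
            rw [T.Q_pu] at hQub ⊢
            rw [polar_self', polar_self',
              show 2 * QA u * (2 * QB b) = 2 * (2 * (QA u * QB b)) by ring,
              div_mul_cancel₀ _ (mul_ne_zero T.two hQub), sub_self]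
          have hz0 : polar QA u (![a, u, a'] i') * polar QB b (![b, c₁, c₂] j') = 0 := by
            by_cases hi' : i' = 1
            · rw [show polar QB b (![b, c₁, c₂] j') = 0 from hfb.orth 0 j' fun h => h10 ⟨hi', h.symm⟩,
                mul_zero]
            · rw [show polar QA u (![a, u, a'] i') = 0 from hfa.orth 1 i' (Ne.symm hi'), zero_mul]
          rw [hz0, mul_zero, sub_zero]
          have h2' : (2 : F) * polar Q y (pu (![a, u, a'] i') (![b, c₁, c₂] j')) = 0 := by
            by_cases hi' : i' = 1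
            · have hj' : j' ≠ 0 := fun h => h10 ⟨hi', h⟩
              have e := orth_polar d y (pu (![a, u, a'] i') (![b, c₁, c₂] j'))
              rw [hdy, hd, T.pr_pu] at e
              rw [show (tvec QA a : A ≃ₗ[F] A) (![a, u, a'] i') = -(![a, u, a'] i') by
                have := tvec_frame hfa 0 i'
                rwa [if_neg (by rw [hi']; decide)] at this,
                show (tvec QB b : B ≃ₗ[F] B) (![b, c₁, c₂] j') = -(![b, c₁, c₂] j') by
                have := tvec_frame hfb 0 j'
                rwa [if_neg hj'.symm] at this] at e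
              simp only [map_neg, LinearMap.neg_apply, neg_neg, polar_neg_left, polar_neg_right] at e
              linear_combination -e
            · have e := orth_polar s y (pu (![a, u, a'] i') (![b, c₁, c₂] j'))
              rw [hsy, hs, T.kL_pu, show (tvec QA u : A ≃ₗ[F] A) (![a, u, a'] i') = -(![a, u, a'] i') by
                have := tvec_frame hfa 1 i'
                rwa [if_neg (Ne.symm hi')] at this, map_neg, LinearMap.neg_apply, polar_neg_right] at e
              linear_combination -e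
          exact (mul_eq_zero.1 h2').resolve_left T.two
        obtain ⟨α, hα⟩ := himg 1 (by decide)
        obtain ⟨β, hβ⟩ := himg 2 (by decide)
        have h0 : pu a (β • c₁ - α • c₂) = 0 := by
          apply (w4 : V ≃ₗ[F] V).injective
          simp only [Matrix.cons_val_one, Matrix.cons_val_zero, Matrix.cons_val_two, Matrix.tail_cons,
            Matrix.head_cons] at hα hβ
          rw [map_sub, map_smul, map_smul, map_sub, map_smul, map_smul, hα, hβ, smul_smul, smul_smul,
            mul_comm, sub_self, map_zero]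
        have h00 := T.pu_eq_zero_right h0 fun h => ha (by rw [h, QuadraticMap.map_zero])
        have hc := congrArg (polar QB c₂) h00
        rw [polar_sub_right, polar_smul_right, polar_smul_right, polar_zero_right, polar_self',
          show polar QB c₂ c₁ = 0 from hfb.orth 2 1 (by decide), smul_zero, zero_sub, neg_eq_zero,
          smul_eq_mul] at hc
        have hα0 : α = 0 := (mul_eq_zero.1 hc).resolve_right (mul_ne_zero T.two (hfb.ne 2))
        rw [hα0, zero_smul, LinearEquiv.map_eq_zero_iff] at hα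
        have := T.pu_eq_zero_right hα fun h => ha (by rw [h, QuadraticMap.map_zero])
        exact hc₁ (by
          rw [show c₁ = 0 from this, QuadraticMap.map_zero])
    · -- an involution of the second factor commuting with `t`
      obtain ⟨w', hfw⟩ := exists_third T.ndB T.two S.b3 hb hw hw1
      refine htR w' (hfw.ne 2) ?_
      rwa [hgk, hv1, hd, ← map_mul, Prod.mk_mul_mk, tvec_sq,
        show tvec QB b * tvec QB w = tvec QB w' from tvec_mul_frame T.ndB T.two S.b3 hfw
          (i := 0) (j := 1) (k := 2) (by decide) (by decide) (by decide),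
        T.pr_apply, map_one, one_mul] at hdzt
    · obtain ⟨v', hfv⟩ := exists_third T.ndA T.two S.a3 ha hv hv1
      refine htL v' (hfv.ne 2) ?_
      rwa [hgk, hw1, hd, ← map_mul, Prod.mk_mul_mk, tvec_sq,
        show tvec QA a * tvec QA v = tvec QA v' from tvec_mul_frame T.ndA T.two S.a3 hfv
          (i := 0) (j := 1) (k := 2) (by decide) (by decide) (by decide),
        T.pr_apply, map_one, mul_one] at hdzt
    · -- general position
      obtain ⟨v', hfv⟩ := exists_third T.ndA T.two S.a3 ha hv hv1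
      obtain ⟨w', hfw⟩ := exists_third T.ndB T.two S.b3 hb hw hw1
      have hSv : tvec QA v ∈ commutator (orth QA) := by
        rcases tvec_comm_cases T.two hu hv hvu with h | h
        · rw [h]; exact hSu
        · rw [← show tvec QA a * tvec QA u = tvec QA v from tvec_mul_frame T.ndA T.two S.a3
            (oFam_three ha hu hv hau hv1 h) (i := 0) (j := 1) (k := 2) (by decide) (by decide) (by decide)]
          exact mul_mem hSa hSu
      refine htN (S.klein hfv hfw (fun i => ?_) htM hdt.symm (hgk ▸ hzt.symm.eq))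
      fin_cases i
      · exact hSa
      · exact hSv
      · show tvec QA v' ∈ _
        rw [← show tvec QA a * tvec QA v = tvec QA v' from tvec_mul_frame T.ndA T.two S.a3 hfv
          (i := 0) (j := 1) (k := 2) (by decide) (by decide) (by decide)]
        exact mul_mem hSa hSv

/-- The stabiliser controls the fusion of products of two involutions. -/
theorem fusion_pair {a : A} {b : B} (ha : QA a ≠ 0) (hb : QB b ≠ 0)
    (hSa : tvec QA a ∈ commutator (orth QA)) (hSb : tvec QB b ∈ commutator (orth QB)) {m : orth Q}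
    (hm : m ∈ M) (hc : m * T.pr (tvec QA a, tvec QB b) * m⁻¹ ∈ Wσ.N) : m ∈ Wσ.N := by
  set d := T.pr (tvec QA a, tvec QB b) with hd
  have hdM : d ∈ M := by
    rw [hd, T.pr_apply]
    exact mul_mem (S.kL_tvec_mem hSa) (S.swap.kL_tvec_mem hSb)
  have hdd : d * d = 1 := by rw [hd, ← map_mul, Prod.mk_mul_mk, tvec_sq, tvec_sq, Prod.mk_one_one, map_one]
  set w := m * d * m⁻¹ with hw
  have hwM : w ∈ M := mul_mem (mul_mem hm hdM) (inv_mem hm)
  have hw2 : w * w = 1 := by
    calc w * w = m * (d * d) * m⁻¹ := by rw [hw]; group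
      _ = 1 := by rw [hdd, mul_one, mul_inv_cancel]
  have hback : ∀ r ∈ M, r * w = w * r → m⁻¹ * r * m ∈ Wσ.N ∧
      m⁻¹ * r * m * d = d * (m⁻¹ * r * m) := by
    intro r hr hrw
    have h1 : m⁻¹ * r * m * d = d * (m⁻¹ * r * m) := by
      calc m⁻¹ * r * m * d = m⁻¹ * (r * w) * m := by rw [hw]; group
        _ = m⁻¹ * (w * r) * m := by rw [hrw]
        _ = _ := by rw [hw]; group
    exact ⟨S.centralizer_pair ha hb hSa (mul_mem (mul_mem (inv_mem hm) hr) hm) h1, h1⟩
  by_cases hwP : w ∈ T.PG
  · obtain ⟨v, v', hv, -, he⟩ := (S.pure_involution hwP hw2).2 (by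
      rw [hw, negDim_conj, hd, S.negDim_pair ha hb])
    obtain ⟨u, hu, hvu, hSu⟩ := exists_perp_omega T.ndA T.two S.a3 hv
    have hcm : T.kL (tvec QA u) * w = w * T.kL (tvec QA u) := by
      rw [he, show T.kL (tvec QA u) = T.pr (tvec QA u, 1) by rw [T.pr_apply, map_one, mul_one],
        ← map_mul, ← map_mul, Prod.mk_mul_mk, Prod.mk_mul_mk, mul_one, one_mul,
        show tvec QA u * tvec QA v = tvec QA v * tvec QA u from
          (tvec_commute (oFam_two hv hu hvu) 1 0)]
    obtain ⟨h1, -⟩ := hback _ (S.kL_tvec_mem hSu) hcm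
    have h2 := S.fusion_kL hu (S.kL_tvec_mem hSu) (inv_mem hm) (by rwa [inv_inv])
    simpa using inv_mem h2
  · exfalso
    obtain ⟨g₀, h₀, hconj⟩ := Wσ.conj_of_notMem hc hwP
    obtain ⟨p, hp, hcp⟩ := exists_char F
    obtain ⟨e, he0, he⟩ := H5.exists_singular (Q := QA) T.ndA S.hA
    obtain ⟨f, hef⟩ := exists_hypPair (Q := QA) T.ndA he0 he
    obtain ⟨a₀, ha₀, hQa₀⟩ := exists_anisotropic (hef.inf_perp T.ndA)
      (by have := hef.finrank_pperp T.ndA; rw [S.a3] at this; omega)
    have hea₀ := (mem_pperp.1 ha₀).1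
    set g := eich QA e a₀
    set k := h₀ * Wσ.toB g * h₀⁻¹
    have h1 : w * T.kL g * w⁻¹ = T.kR k := (hconj g).1
    have hwi : w⁻¹ = w := inv_eq_of_mul_eq_one_right hw2
    set r := T.kL g * T.kR k with hr
    have hrM : r ∈ M := by
      rw [hr, ← h1]
      exact mul_mem (S.hOver.left _ (eich_mem_omega T.ndA T.two _ _))
        (mul_mem (mul_mem hwM (S.hOver.left _ (eich_mem_omega T.ndA T.two _ _))) (inv_mem hwM))
    have hrw : r * w = w * r := by
      rw [hwi] at h1
      have h2 : w * T.kR k * w = T.kL g := by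
        rw [← h1]
        calc w * (w * T.kL g * w) * w = (w * w) * T.kL g * (w * w) := by group
          _ = T.kL g := by rw [hw2, one_mul, mul_one]
      calc r * w = (w * T.kR k * w) * (w * T.kL g * w) * w := by rw [hr, h2, h1]
        _ = w * (T.kR k * (w * w) * T.kL g) * (w * w) := by group
        _ = _ := by rw [hw2, mul_one, mul_one, hr, (T.kR_comm k g).eq]
    obtain ⟨hN, hcd⟩ := hback r hrM hrw
    have hkp : k ^ p = 1 := by
      rw [show k = h₀ * Wσ.toB g * h₀⁻¹ from rfl, conj_pow, ← map_pow, eich_pow_char he hea₀, map_one,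
        mul_one, mul_inv_cancel]
    have hxp : (m⁻¹ * r * m) ^ p = 1 := by
      rw [show m⁻¹ * r * m = m⁻¹ * r * (m⁻¹)⁻¹ by rw [inv_inv], conj_pow, hr, ← T.pr_apply, ← map_pow,
        Prod.pow_mk, eich_pow_char he hea₀, hkp, Prod.mk_one_one, map_one, mul_one, mul_inv_cancel]
    have hp2 : Odd p := hp.out.odd_of_ne_two fun h => T.two (by
      subst h; exact CharP.cast_eq_zero F 2)
    obtain ⟨g', k', hg', hgk'⟩ := S.dec (Wσ.mem_PG_of_odd hN hp2 hxp)
    obtain ⟨hg'p, hk'p⟩ := S.dec_pow hg' (N := p ^ 1) (by rw [pow_one, ← hgk', hxp])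
    rw [hgk', hd] at hcd
    obtain ⟨c1, c2⟩ := S.dec_commute hg' (dick_tvec T.ndA T.two S.a3 ha) hcd
    rw [eq_one_of_comm_tvec T.ndA T.two S.a3 hg'p ha c1,
      eq_one_of_comm_tvec T.ndB T.two S.b3 hk'p hb c2, Prod.mk_one_one, map_one] at hgk'
    have hr1 : r = 1 := by
      calc r = m * (m⁻¹ * r * m) * m⁻¹ := by group
        _ = 1 := by rw [hgk', mul_one, mul_inv_cancel]
    exact eich_ne_one T.two he0 he hea₀ T.ndA hQa₀
      (T.eq_one_of_pr S.a3 (k := k) (dick_omega T.ndA T.two (eich_mem_omega T.ndA T.two _ _))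
        (by rw [T.pr_apply, ← hr, hr1]) (by rw [S.b3]; omega)).1

end Sq

end Cfsg.Agent.H1.OmegaNine.Tensor
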