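import Cfsg.Agent.H1.OmegaNine.Tensor.Centralizer

/-!
Fusion of the involutions of one factor.
-/

set_option autoImplicit false
set_option linter.unusedSectionVars false

namespace Cfsg.Agent.H1.OmegaNine.Tensor

open QuadraticMap hiding sq
open Cfsg.Agent.H5 Cfsg.Agent.H19.OrthTensor Module

variable {F V A B : Type*} [Field F] [Finite F] [AddCommGroup V] [Module F V] [Finite V]
  [FiniteDimensional F V] [AddCommGroup A] [Module F A] [Finite A] [FiniteDimensional F A]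
  [AddCommGroup B] [Module F B] [Finite B] [FiniteDimensional F B]
  {Q : QuadraticForm F V} {QA : QuadraticForm F A} {QB : QuadraticForm F B}
  {pu : A →ₗ[F] B →ₗ[F] V}

namespace Sw

variable {T : TO Q QA QB pu} (Wσ : Sw T)

theorem toB_tvec {v : A} (hv : QA v ≠ 0) : Wσ.toB (tvec QA v) = tvec QB (Wσ.θ v) := by
  refine orth_ext fun u => ?_
  obtain ⟨x, rfl⟩ := Wσ.θ.surjective u
  have hp : polar QB (Wσ.θ v) (Wσ.θ x) = Wσ.c * polar QA v x := by
    simp only [polar, ← map_add, Wσ.hθ]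
    ring
  rw [Wσ.toB_apply]
  simp only [tvec, orth_mul_apply, negOne_apply, refl_apply, map_neg, map_sub, map_smul, Wσ.hθ, hp]
  congr 2
  have := Wσ.hc
  field_simp

theorem N_swap : Wσ.swap.N = Wσ.N := by
  ext m
  show m ∈ T.swap.PG ∨ m * Wσ.σ ∈ T.swap.PG ↔ _
  rw [PG_swap]
  rfl

/-- A product of two elements of the stabiliser outside the pure ones is pure. -/
theorem mul_mem_PG {a b : orth Q} (ha : a ∈ Wσ.N) (ha' : a ∉ T.PG) (hb : b ∈ Wσ.N) (hb' : b ∉ T.PG) :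
    a * b ∈ T.PG := by
  have := mul_mem (ha.resolve_left ha') (Wσ.conj_mem (hb.resolve_left hb'))
  have e : a * Wσ.σ * (Wσ.σ * (b * Wσ.σ) * Wσ.σ) = a * b := by
    simp only [mul_assoc]
    rw [← mul_assoc Wσ.σ Wσ.σ, Wσ.σ_sq, mul_one, one_mul]
  rwa [e] at this

/-- An element of odd order of the stabiliser is pure. -/
theorem mem_PG_of_odd {a : orth Q} (ha : a ∈ Wσ.N) {n : ℕ} (hn : Odd n) (hpow : a ^ n = 1) :
    a ∈ T.PG := by
  by_contra hne
  obtain ⟨j, rfl⟩ := hn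
  have h2 : (a * a) ^ j ∈ T.PG := pow_mem (Wσ.mul_mem_PG ha hne ha hne) j
  refine hne ?_
  have e : a = ((a * a) ^ j)⁻¹ := by
    refine eq_inv_of_mul_eq_one_left ?_
    rw [← hpow, ← pow_two, ← pow_mul, pow_succ' a (2 * j)]
  rw [e]
  exact inv_mem h2

/-- An element outside the pure ones exchanges the factors. -/
theorem conj_of_notMem {w : orth Q} (hw : w ∈ Wσ.N) (hw' : w ∉ T.PG) :
    ∃ g₀ h₀, ∀ g, w * T.kL g * w⁻¹ = T.kR (h₀ * Wσ.toB g * h₀⁻¹) ∧
      ∀ k, w * T.kR k * w⁻¹ = T.kL (g₀ * Wσ.swap.toB k * g₀⁻¹) := by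
  obtain ⟨⟨g₀, h₀⟩, hgh⟩ := hw.resolve_left hw'
  refine ⟨g₀, h₀, fun g => ?_⟩
  have hw2 : w = T.kL g₀ * T.kR h₀ * Wσ.σ := by
    rw [← T.pr_apply, hgh, mul_assoc, Wσ.σ_sq, mul_one]
  constructor
  · calc w * T.kL g * w⁻¹ = T.kL g₀ * (T.kR h₀ * (Wσ.σ * T.kL g * Wσ.σ) * (T.kR h₀)⁻¹) * (T.kL g₀)⁻¹ := by
          rw [hw2, mul_inv_rev, mul_inv_rev, Wσ.σ_inv]; group
      _ = _ := by
          rw [Wσ.conj_kL, ← map_inv T.kR, ← map_mul, ← map_mul, ← (T.kR_comm _ g₀).eq,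
            mul_inv_cancel_right]
  · intro k
    calc w * T.kR k * w⁻¹ = T.kR h₀ * (T.kL g₀ * (Wσ.σ * T.kR k * Wσ.σ) * (T.kL g₀)⁻¹) * (T.kR h₀)⁻¹ := by
          rw [hw2, (T.kR_comm h₀ g₀).symm.eq, mul_inv_rev, mul_inv_rev, Wσ.σ_inv]; group
      _ = _ := by
          rw [Wσ.conj_kR, ← map_inv T.kL, ← map_mul, ← map_mul, (T.kR_comm h₀ _).eq,
            mul_inv_cancel_right]

end Sw

namespace Sq

variable {T : TO Q QA QB pu} {Wσ : Sw T} {M : Subgroup (orth Q)} (S : Sq T Wσ M)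
include S

theorem negDim_kL_tvec {v : A} (hv : QA v ≠ 0) : negDim (T.kL (tvec QA v)) = 6 := by
  have := negDim_tvec T.ndA T.two hv
  rw [S.a3] at this
  rw [T.negDim_kL, S.b3, show negDim (tvec QA v) = 2 by omega]

theorem negDim_pair {v : A} {w : B} (hv : QA v ≠ 0) (hw : QB w ≠ 0) :
    negDim (T.pr (tvec QA v, tvec QB w)) = 4 := by
  have h1 := negDim_tvec T.ndA T.two hv
  have h2 := negDim_tvec T.ndB T.two hw
  have h3 := finrank_eigen T.two (tvec_sq (Q := QA) v)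
  have h4 := finrank_eigen T.two (tvec_sq (Q := QB) w)
  rw [T.pr_apply, T.negDim_kL_kR (tvec_sq (Q := QA) v), show negDim (tvec QA v) = 2 by rw [S.a3] at h1; omega,
    show negDim (tvec QB w) = 2 by rw [S.b3] at h2; omega,
    show finrank F (fixer (tvec QA v)) = 1 by rw [S.a3] at h1 h3; omega,
    show finrank F (fixer (tvec QB w)) = 1 by rw [S.b3] at h2 h4; omega]

/-- Pure involutions with six- and four-dimensional negative eigenspace. -/
theorem pure_involution {w : orth Q} (hw : w ∈ T.PG) (hw2 : w * w = 1) :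
    (negDim w = 6 → (∃ v, QA v ≠ 0 ∧ w = T.kL (tvec QA v)) ∨ ∃ u, QB u ≠ 0 ∧ w = T.kR (tvec QB u)) ∧
    (negDim w = 4 → ∃ v u, QA v ≠ 0 ∧ QB u ≠ 0 ∧ w = T.pr (tvec QA v, tvec QB u)) := by
  obtain ⟨g, k, hg, rfl⟩ := S.dec hw
  obtain ⟨hg2, hk2⟩ := S.dec_pow hg (N := 2) (by rw [pow_two, hw2])
  rw [pow_two] at hg2 hk2
  have hfk := finrank_eigen T.two hk2
  rw [S.b3] at hfk
  have hk : negDim k = 2 → ∃ u, QB u ≠ 0 ∧ k = tvec QB u := fun h2 =>
    exists_tvec_eq T.ndB T.two S.b3 (by rw [dick, rk_invol T.two hk2, h2]; decide) hk2 (fun h0 => by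
      rw [h0, negDim_one T.two] at h2; omega)
  have hnd := T.negDim_kL_kR hg2 k
  rw [← T.pr_apply] at hnd
  by_cases hg1 : g = 1
  · subst hg1
    have h1 : finrank F (fixer (1 : orth QA)) = 3 := by
      have := finrank_eigen T.two hg2
      rw [negDim_one T.two, S.a3] at this
      omega
    rw [h1, negDim_one T.two, zero_mul, add_zero] at hnd
    refine ⟨fun h6 => Or.inr ?_, fun h4 => absurd hnd (by omega)⟩
    obtain ⟨u, hu, rfl⟩ := hk (by omega)
    exact ⟨u, hu, by rw [T.pr_apply, map_one, one_mul]⟩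
  · obtain ⟨v, hv, rfl⟩ := exists_tvec_eq T.ndA T.two S.a3 hg hg2 hg1
    have h1 := negDim_tvec T.ndA T.two hv
    have h3 := finrank_eigen T.two hg2
    rw [S.a3] at h1 h3
    rw [show negDim (tvec QA v) = 2 by omega, show finrank F (fixer (tvec QA v)) = 1 by omega,
      one_mul] at hnd
    refine ⟨fun h6 => Or.inl ⟨v, hv, ?_⟩, fun h4 => ?_⟩
    · rw [eq_one_of_negDim T.two hk2 (by omega), T.pr_apply, map_one, mul_one]
    · obtain ⟨u, hu, rfl⟩ := hk (by omega)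
      exact ⟨v, u, hv, hu, rfl⟩

/-- Some element of `M` exchanges the factors. -/
theorem exists_swap_mem : ∃ ν ∈ M, ν ∈ Wσ.N ∧ ν ∉ T.PG := by
  have hσP : Wσ.σ ∉ T.PG := by
    intro hP
    obtain ⟨g, k, hg, hgk⟩ := S.dec hP
    obtain ⟨p, hp0, hp⟩ := H5.exists_singular (Q := QA) T.ndA S.hA
    obtain ⟨f, hpf⟩ := exists_hypPair (Q := QA) T.ndA hp0 hp
    have hQv : QA (p + f) ≠ 0 := by
      rw [QuadraticMap.map_add (⇑QA), hp, hpf.right, hpf.pair]; simp
    have hdg : ∀ g' : orth QA, dick g' = 1 → dick (g * g' * g⁻¹) = 1 := fun g' h' => by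
      rw [dick_mul_odd T.ndA T.two, dick_mul_odd T.ndA T.two, h', mul_one,
        ← dick_mul_odd T.ndA T.two, mul_inv_cancel, dick_one]
    have h2 : T.pr (g * tvec QA (p + f) * g⁻¹, 1) = T.pr (1, Wσ.toB (tvec QA (p + f))) := by
      have e : Wσ.σ * T.kL (tvec QA (p + f)) * Wσ.σ = Wσ.σ * T.kL (tvec QA (p + f)) * Wσ.σ⁻¹ := by
        rw [Wσ.σ_inv]
      rw [T.pr_apply 1, map_one, one_mul, ← Wσ.conj_kL, e, T.pr_apply, map_one, mul_one, hgk,
        T.pr_apply, mul_inv_rev, map_mul, map_mul, map_inv]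
      calc T.kL g * T.kL (tvec QA (p + f)) * (T.kL g)⁻¹
          = T.kL g * (T.kR k * T.kL (tvec QA (p + f)) * (T.kR k)⁻¹) * (T.kL g)⁻¹ := by
            rw [(T.kR_comm k _).eq, mul_inv_cancel_right]
        _ = _ := by group
    have h3 := (S.pr_inj (hdg _ (dick_tvec T.ndA T.two S.a3 hQv)) dick_one h2).1
    exact tvec_ne_one T.ndA T.two S.a3 hQv (conj_eq_one_iff.1 h3)
  have hN : Wσ.σ ∈ Wσ.N := Or.inr (by rw [Wσ.σ_sq]; exact one_mem _)
  obtain ⟨μ, hμN, hμP, hμd⟩ : ∃ μ, μ ∈ Wσ.N ∧ μ ∉ T.PG ∧ dick μ = 1 := by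
    rcases Int.units_eq_one_or (dick Wσ.σ) with h | h
    · exact ⟨_, hN, hσP, h⟩
    · have hPn : negOne Q ∈ T.PG := ⟨(negOne QA, 1), T.orth_ext_pu fun x u => by
        rw [T.pr_pu, negOne_apply, negOne_apply, map_neg, LinearMap.neg_apply]
        rfl⟩
      refine ⟨negOne Q * Wσ.σ, mul_mem (Wσ.le_N hPn) hN, fun hP => hσP ?_, ?_⟩
      · have := mul_mem (inv_mem hPn) hP
        rwa [inv_mul_cancel_left] at this
      · rw [dick_mul_odd T.ndV T.two, h, dick, rk_negOne T.two, T.finrank_mul, S.a3, S.b3]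
        decide
  rcases Int.units_eq_one_or (spin Q μ) with h | h
  · exact ⟨μ, S.hN _ ((mem_omega_iff T.ndV T.two).2 ⟨hμd, h⟩) hμN, hμN, hμP⟩
  · obtain ⟨p, hp0, hp⟩ := H5.exists_singular (Q := QA) T.ndA S.hA
    obtain ⟨f, hpf⟩ := exists_hypPair (Q := QA) T.ndA hp0 hp
    obtain ⟨t, ht⟩ := FiniteField.exists_nonsquare (F := F) (fun hc => T.two (by
      haveI := ringChar.of_eq hc
      exact CharP.cast_eq_zero F 2))
    have ht0 : t ≠ 0 := fun h0 => ht (h0 ▸ IsSquare.zero)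
    set g := pairScale QA p f t
    have hgd : dick g = 1 := dick_pairScale T.ndA hpf ht0
    have hgs : spin QA g = -1 := by
      rw [spin_pairScale hpf ht0]
      exact sqc_eq_neg_one_iff.2 ht
    have hN' : T.kL g * μ ∈ Wσ.N := mul_mem (Wσ.le_N (T.kL_mem_PG g)) hμN
    refine ⟨T.kL g * μ, S.hN _ ((mem_omega_iff T.ndV T.two).2 ⟨?_, ?_⟩) hN', hN', fun hP => hμP ?_⟩
    · rw [dick_mul_odd T.ndV T.two, (S.dick_spin_kL g).1, hgd, hμd, one_mul]
    · rw [map_mul, (S.dick_spin_kL g).2 hgd, hgs, h]; decide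
    · have := mul_mem (inv_mem (T.kL_mem_PG g)) hP
      rwa [inv_mul_cancel_left] at this

theorem fixed_root_C {e η : B} (he0 : e ≠ 0) (he : QB e = 0) (hη : polar QB e η = 0) (hQη : QB η ≠ 0)
    {v : V} (hv : (T.kR (eich QB e η) : V ≃ₗ[F] V) v = v) {z : B} (hz : polar QB e z = 0) :
    T.C z v = 0 := by
  have hfix : ∀ u, T.C ((eich QB e η : B ≃ₗ[F] B) u) v = T.C u v := fun u => by
    conv_lhs => rw [← hv]
    exact T.C_kR _ u v
  have hCe : T.C e v = 0 := by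
    have h1 := hfix η
    rw [eich_apply he hη, hη, polar_self', zero_smul, mul_zero, zero_smul, add_zero, sub_zero,
      map_sub, map_smul, LinearMap.sub_apply, LinearMap.smul_apply, sub_eq_self] at h1
    exact (smul_eq_zero.1 h1).resolve_left (mul_ne_zero T.two hQη)
  obtain ⟨h, hh⟩ := exists_hypPair (Q := QB) T.ndB he0 he
  have hCη : T.C η v = 0 := by
    have h1 := hfix h
    rw [eich_apply he hη, hh.pair, one_smul, mul_one] at h1
    simp only [map_sub, map_add, map_smul, LinearMap.sub_apply, LinearMap.add_apply,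
      LinearMap.smul_apply, hCe, smul_zero, sub_zero, add_eq_left] at h1
    exact h1
  have hw := hh.decomp z
  rw [hz, zero_smul, sub_zero] at hw
  have hη₀ := hh.decomp η
  rw [hη, zero_smul, sub_zero] at hη₀
  have hne : (⟨_, hη₀⟩ : pperp QB e h) ≠ 0 := fun h0 => hQη (by
    have h1 : η - polar QB h η • e = 0 := congrArg Subtype.val h0
    rw [sub_eq_zero.1 h1, QuadraticMap.map_smul, he, smul_zero])
  have hd : finrank F (pperp QB e h) = 1 := by
    have := hh.finrank_pperp T.ndB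
    rw [S.b3] at this
    omega
  obtain ⟨s, hs⟩ := (finrank_eq_one_iff_of_nonzero' _ hne).1 hd ⟨_, hw⟩
  have hs' : s • (η - polar QB h η • e) = z - polar QB h z • e := congrArg Subtype.val hs
  rw [eq_sub_iff_add_eq] at hs'
  rw [← hs']
  simp [hCe, hCη]

/-- No element of `M` carries an involution of the first factor to an exchanging one. -/
theorem no_swap_type {a : A} (ha : QA a ≠ 0) (hsM : T.kL (tvec QA a) ∈ M) {m : orth Q} (hm : m ∈ M)
    (hwN : m * T.kL (tvec QA a) * m⁻¹ ∈ Wσ.N) : m * T.kL (tvec QA a) * m⁻¹ ∈ T.PG := by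
  by_contra hwP
  set s := T.kL (tvec QA a) with hs
  set w := m * s * m⁻¹ with hw
  have hwM : w ∈ M := mul_mem (mul_mem hm hsM) (inv_mem hm)
  have hw2 : w * w = 1 := by
    have : s * s = 1 := by rw [hs, ← map_mul, tvec_sq, map_one]
    calc w * w = m * (s * s) * m⁻¹ := by rw [hw]; group
      _ = 1 := by rw [this, mul_one, mul_inv_cancel]
  obtain ⟨g₀, h₀, hconj⟩ := Wσ.conj_of_notMem hwN hwP
  obtain ⟨p, hp, hcp⟩ := exists_char F
  have hLA := lineAniso_three T.ndA S.a3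
  have hLB := lineAniso_three T.ndB S.b3
  obtain ⟨e, he0, he⟩ := H5.exists_singular (Q := QA) T.ndA S.hA
  obtain ⟨f, hef⟩ := exists_hypPair (Q := QA) T.ndA he0 he
  obtain ⟨a₀, ha₀, hQa₀⟩ := exists_anisotropic (hef.inf_perp T.ndA)
    (by have := hef.finrank_pperp T.ndA; rw [S.a3] at this; omega)
  obtain ⟨hea₀, hfa₀⟩ := mem_pperp.1 ha₀
  let κ : orth QA → orth QB := fun g => h₀ * Wσ.toB g * h₀⁻¹
  have key : ∀ p₀ : A, p₀ ≠ 0 → QA p₀ = 0 → polar QA p₀ a₀ = 0 →
      ∃ e' η', e' ≠ 0 ∧ QB e' = 0 ∧ polar QB e' η' = 0 ∧ QB η' ≠ 0 ∧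
        m⁻¹ * T.pr (eich QA p₀ a₀, κ (eich QA p₀ a₀)) * m = T.kR (eich QB e' η') := by
    intro p₀ hp0 hps hpa
    set g := eich QA p₀ a₀
    have hkM : T.kR (κ g) ∈ M := by
      rw [← (hconj g).1]
      exact mul_mem (mul_mem hwM (S.hOver.left _ (eich_mem_omega T.ndA T.two _ _))) (inv_mem hwM)
    set r := T.pr (g, κ g) with hr
    have hrM : r ∈ M := by
      rw [hr, T.pr_apply]
      exact mul_mem (S.hOver.left _ (eich_mem_omega T.ndA T.two _ _)) hkM
    have hrw : r * w = w * r := by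
      have h1 : w * T.kR (κ g) * w⁻¹ = T.kL g := by
        rw [← (hconj g).1]
        have hwi : w⁻¹ = w := inv_eq_of_mul_eq_one_right hw2
        rw [hwi]
        calc w * (w * T.kL g * w) * w = (w * w) * T.kL g * (w * w) := by group
          _ = T.kL g := by rw [hw2, one_mul, mul_one]
      rw [hr, T.pr_apply]
      calc T.kL g * T.kR (κ g) * w = w * T.kR (κ g) * w⁻¹ * (w * T.kL g * w⁻¹) * w := by
            rw [h1, (hconj g).1]
        _ = w * (T.kR (κ g) * T.kL g) := by group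
        _ = _ := by rw [(T.kR_comm _ _).eq]
    have hxM : m⁻¹ * r * m ∈ M := mul_mem (mul_mem (inv_mem hm) hrM) hm
    have hxs : m⁻¹ * r * m * s = s * (m⁻¹ * r * m) := by
      calc m⁻¹ * r * m * s = m⁻¹ * (r * w) * m := by rw [hw]; group
        _ = m⁻¹ * (w * r) * m := by rw [hrw]
        _ = _ := by rw [hw]; group
    obtain ⟨g', k', hg', hgk'⟩ := S.dec (S.centralizer_tvec ha hxM hxs)
    have hgd : dick g = 1 := dick_omega T.ndA T.two (eich_mem_omega T.ndA T.two _ _)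
    have hrp : r ^ p = 1 := by
      rw [hr, ← map_pow, Prod.pow_mk, eich_pow_char hps hpa,
        show κ g ^ p = h₀ * Wσ.toB g ^ p * h₀⁻¹ from conj_pow, ← map_pow, eich_pow_char hps hpa,
        map_one, mul_one, mul_inv_cancel, Prod.mk_one_one, map_one]
    obtain ⟨hg'p, hk'p⟩ := S.dec_pow hg' (N := p ^ 1) (by
      rw [pow_one, ← hgk', show m⁻¹ * r * m = m⁻¹ * r * (m⁻¹)⁻¹ by rw [inv_inv], conj_pow, hrp, mul_one,
        mul_inv_cancel])
    have hg's : g' * tvec QA a = tvec QA a * g' := by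
      refine (S.dec_commute hg' (dick_tvec T.ndA T.two S.a3 ha) (k := k') (k' := 1) ?_).1
      rw [T.pr_apply (tvec QA a), map_one, mul_one, ← hgk']
      exact hxs
    obtain rfl := eq_one_of_comm_tvec T.ndA T.two S.a3 hg'p ha hg's
    have hk1 : k' ≠ 1 := by
      intro h0
      rw [h0, Prod.mk_one_one, map_one] at hgk'
      have h1 : r = 1 := by
        calc r = m * (m⁻¹ * r * m) * m⁻¹ := by group
          _ = 1 := by rw [hgk', mul_one, mul_inv_cancel]
      exact eich_ne_one T.two hp0 hps hpa T.ndA hQa₀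
        (T.eq_one_of_pr S.a3 hgd h1 (by rw [S.b3]; omega)).1
    obtain ⟨e', η', he'0, he', hη', hQη', rfl⟩ :=
      exists_eich_of_unipotent T.ndB T.two hLB hk1 hk'p
    exact ⟨e', η', he'0, he', hη', hQη', by rw [hgk', T.pr_apply, map_one, one_mul]⟩
  obtain ⟨e₁, η₁, he10, he1, hη1, hQη1, hr1⟩ := key e he0 he hea₀
  obtain ⟨e₂, η₂, he20, he2, hη2, hQη2, hr2⟩ := key f hef.symm.ne_zero hef.right hfa₀
  by_cases h12 : polar QB e₁ e₂ = 0
  · -- the same line: the root elements would commute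
    obtain ⟨c, hc⟩ := Submodule.mem_span_singleton.1
      (mem_span_of_perp_singular T.ndB hLB he10 he1 h12 he2)
    have hc0 : c ≠ 0 := fun h0 => he20 (by rw [← hc, h0, zero_smul])
    have hη2' : polar QB e₁ η₂ = 0 := by
      rw [← hc, polar_smul_left, smul_eq_mul] at hη2
      exact (mul_eq_zero.1 hη2).resolve_left hc0
    rw [← hc, eich_smul_smul he1 hη2'] at hr2
    have hcomm := eich_comm (Q := QB) he1 hη1 (show polar QB e₁ (c • η₂) = 0 by
      rw [polar_smul_right, hη2', smul_zero])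
    have hc1 := congrArg T.kR hcomm
    rw [map_mul, map_mul, ← hr1, ← hr2] at hc1
    have hprs : T.pr (eich QA e a₀, κ (eich QA e a₀)) * T.pr (eich QA f a₀, κ (eich QA f a₀)) =
        T.pr (eich QA f a₀, κ (eich QA f a₀)) * T.pr (eich QA e a₀, κ (eich QA e a₀)) := by
      have h1 := congrArg (fun x => m * x * m⁻¹) hc1
      simpa [mul_assoc] using h1
    have hgg := (S.dec_commute (dick_omega T.ndA T.two (eich_mem_omega T.ndA T.two _ _))
      (dick_omega T.ndA T.two (eich_mem_omega T.ndA T.two _ _)) hprs).1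
    obtain ⟨η, hη, hfe⟩ := eich_of_commute T.ndA T.two hLA (n := 1) (k := eich QA f a₀)
      (by rw [pow_one]; exact eich_pow_char hef.right hfa₀) he0 he hea₀ hQa₀ hgg.symm
    obtain ⟨t, ht⟩ := Submodule.mem_span_singleton.1 (mem_span_of_eich_fixed T.ndA T.two hLA
      hef.symm.ne_zero hef.right hfa₀ hQa₀ he (by rw [hfe]; exact eich_apply_self he hη))
    have h1 := hef.pair
    rw [← ht, polar_smul_left, polar_self', hef.right, mul_zero, smul_zero] at h1
    exact zero_ne_one h1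
  · -- different lines: a common fixed vector must vanish
    let θ₀ : B →ₗ[F] A := (Wσ.θ.symm : B →ₗ[F] A).comp
      (((h₀⁻¹ : orth QB) : B ≃ₗ[F] B) : B →ₗ[F] B)
    let Φ : V →ₗ[F] (B →ₗ[F] A) := T.C.flip
    have hΦ : Function.Injective Φ := (injective_iff_map_eq_zero _).2 fun v hv =>
      T.eq_zero_of_C fun u => by
        have := LinearMap.congr_fun hv u
        exact this
    obtain ⟨v₀, hv₀⟩ := (LinearMap.injective_iff_surjective_of_finrank_eq_finrank
      (by rw [T.finrank_mul, Module.finrank_linearMap, S.a3, S.b3])).1 hΦ θ₀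
    have hv₀' : ∀ u, T.C u v₀ = θ₀ u := fun u => LinearMap.congr_fun hv₀ u
    have hfix : ∀ g, (T.pr (g, κ g) : V ≃ₗ[F] V) v₀ = v₀ := by
      intro g
      rw [← sub_eq_zero]
      refine T.eq_zero_of_C fun z => ?_
      obtain ⟨u, rfl⟩ := (κ g : B ≃ₗ[F] B).surjective z
      rw [map_sub, T.pr_apply, orth_mul_apply (T.kL g), T.C_kL, T.C_kR, hv₀', hv₀', sub_eq_zero]
      show (g : A ≃ₗ[F] A) (Wσ.θ.symm (((h₀⁻¹ : orth QB) : B ≃ₗ[F] B) u)) =
        Wσ.θ.symm (((h₀⁻¹ : orth QB) : B ≃ₗ[F] B) ((h₀ * Wσ.toB g * h₀⁻¹ : orth QB).1 u))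
      obtain ⟨x, hx⟩ := Wσ.θ.surjective (((h₀⁻¹ : orth QB) : B ≃ₗ[F] B) u)
      rw [orth_mul_apply, orth_mul_apply, ← hx, Wσ.toB_apply, orth_inv_apply_apply,
        LinearEquiv.symm_apply_apply, LinearEquiv.symm_apply_apply]
    set v := ((m⁻¹ : orth Q) : V ≃ₗ[F] V) v₀ with hv
    have hvf : ∀ g, ((m⁻¹ * T.pr (g, κ g) * m : orth Q) : V ≃ₗ[F] V) v = v := fun g => by
      rw [hv, orth_mul_apply, orth_mul_apply, orth_apply_inv_apply, hfix]
    have h1 : (T.kR (eich QB e₁ η₁) : V ≃ₗ[F] V) v = v := by rw [← hr1]; exact hvf _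
    have h2 : (T.kR (eich QB e₂ η₂) : V ≃ₗ[F] V) v = v := by rw [← hr2]; exact hvf _
    have hv0 : v = 0 := T.eq_zero_of_C fun z => by
      set c := polar QB e₁ z / polar QB e₁ e₂
      have hz : polar QB e₁ (z - c • e₂) = 0 := by
        rw [polar_sub_right, polar_smul_right, smul_eq_mul, div_mul_cancel₀ _ h12, sub_self]
      have a1 := S.fixed_root_C he10 he1 hη1 hQη1 h1 hz
      have a2 := S.fixed_root_C he20 he2 hη2 hQη2 h2 (z := e₂) (by rw [polar_self', he2, mul_zero])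
      rw [← sub_add_cancel z (c • e₂)]
      simp [map_add, map_smul, a1, a2, map_sub] at *
      simp [a1, a2]
    have h3 : v₀ = 0 := by
      rw [← orth_apply_inv_apply m v₀, ← hv, hv0, map_zero]
    have h4 := hv₀' e₁
    rw [h3, map_zero] at h4
    exact he10 (((h₀⁻¹ : orth QB) : B ≃ₗ[F] B).injective (Wσ.θ.symm.injective (by
      rw [map_zero, map_zero]; exact h4.symm)))

/-- The stabiliser controls the fusion of the involutions of the first factor. -/
theorem fusion_kL {a : A} (ha : QA a ≠ 0) (hsM : T.kL (tvec QA a) ∈ M) {m : orth Q} (hm : m ∈ M)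
    (hc : m * T.kL (tvec QA a) * m⁻¹ ∈ Wσ.N) : m ∈ Wσ.N := by
  set s := T.kL (tvec QA a) with hs
  have hs2 : s * s = 1 := by rw [hs, ← map_mul, tvec_sq, map_one]
  have key : ∀ (m : orth Q) (v : A), m ∈ M → QA v ≠ 0 → m * s * m⁻¹ = T.kL (tvec QA v) → m ∈ T.PG := by
    intro m v hm hv he
    obtain ⟨e, he0, hes⟩ := H5.exists_singular (Q := QB) T.ndB S.hB
    obtain ⟨h, hh⟩ := exists_hypPair (Q := QB) T.ndB he0 hes
    obtain ⟨η, hηm, hQη⟩ := exists_anisotropic (hh.inf_perp T.ndB)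
      (by have := hh.finrank_pperp T.ndB; rw [S.b3] at this; omega)
    have hη := (mem_pperp.1 hηm).1
    set r := T.kR (eich QB e η)
    have hrM : r ∈ M := S.hOver.right _ (eich_mem_omega T.ndB T.two e η)
    have hcomm : m * r * m⁻¹ * T.kL (tvec QA v) = T.kL (tvec QA v) * (m * r * m⁻¹) := by
      rw [← he]
      calc m * r * m⁻¹ * (m * s * m⁻¹) = m * (r * s) * m⁻¹ := by group
        _ = m * (s * r) * m⁻¹ := by rw [hs, (T.kR_comm _ _).eq]
        _ = _ := by group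
    exact S.pure_of_root_comm hv he0 hes hη hQη hm
      (S.centralizer_tvec hv (mul_mem (mul_mem hm hrM) (inv_mem hm)) hcomm) hcomm
  have hwP := S.no_swap_type ha hsM hm hc
  have hw2 : m * s * m⁻¹ * (m * s * m⁻¹) = 1 := by
    calc m * s * m⁻¹ * (m * s * m⁻¹) = m * (s * s) * m⁻¹ := by group
      _ = 1 := by rw [hs2, mul_one, mul_inv_cancel]
  rcases (S.pure_involution hwP hw2).1 (by rw [negDim_conj, S.negDim_kL_tvec ha]) with
    ⟨v, hv, he⟩ | ⟨u, hu, he⟩
  · exact Wσ.le_N (key m v hm hv he)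
  · obtain ⟨ν, hνM, hνN, hνP⟩ := S.exists_swap_mem
    obtain ⟨g₀, h₀, hconj⟩ := Wσ.conj_of_notMem hνN hνP
    have hQ : QA (Wσ.θ.symm u) ≠ 0 := fun h0 => hu (by
      rw [← Wσ.θ.apply_symm_apply u, Wσ.hθ, h0, mul_zero])
    have hP : ν * m ∈ T.PG := by
      refine key _ ((g₀ : A ≃ₗ[F] A) (Wσ.θ.symm u)) (mul_mem hνM hm) (by rwa [orth_map]) ?_
      calc ν * m * s * (ν * m)⁻¹ = ν * (m * s * m⁻¹) * ν⁻¹ := by group
        _ = T.kL (g₀ * Wσ.swap.toB (tvec QB u) * g₀⁻¹) := by rw [he]; exact (hconj 1).2 _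
        _ = _ := by rw [Wσ.swap.toB_tvec hu, tvec_conj]; rfl
    have := mul_mem (inv_mem hνN) (Wσ.le_N hP)
    rwa [inv_mul_cancel_left] at this

/-- The stabiliser controls the fusion of the involutions of the second factor. -/
theorem fusion_kR {u : B} (hu : QB u ≠ 0) (hsM : T.kR (tvec QB u) ∈ M) {m : orth Q} (hm : m ∈ M)
    (hc : m * T.kR (tvec QB u) * m⁻¹ ∈ Wσ.N) : m ∈ Wσ.N :=
  Wσ.N_swap ▸ S.swap.fusion_kL hu hsM hm (Wσ.N_swap.symm ▸ hc)

end Sq

end Cfsg.Agent.H1.OmegaNine.Tensor
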