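import Cfsg.Agent.H1.OmegaNine.Tensor.Fusion

/-!
The common centraliser of two involutions in general position lies in the stabiliser of the factors.
-/

set_option autoImplicit false
set_option linter.unusedSectionVars false

namespace Cfsg.Agent.H1.OmegaNine.Tensor

open QuadraticMap hiding sq
open Cfsg.Agent.H5 Cfsg.Agent.H19.OrthTensor Module

/-- An involution without fixed points on a finite group it normalises inverts it. -/
theorem inverts_of_fpf {G : Type*} [Group G] [Finite G] {K : Subgroup G} {s : G} (hs : s * s = 1)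
    (hK : ∀ x ∈ K, s * x * s ∈ K) (hfix : ∀ x ∈ K, s * x * s = x → x = 1) :
    ∀ x ∈ K, s * x * s = x⁻¹ := by
  let f : K → K := fun x => ⟨(x : G)⁻¹ * (s * x * s), mul_mem (inv_mem x.2) (hK x x.2)⟩
  have hinj : Function.Injective f := by
    rintro ⟨x, hx⟩ ⟨y, hy⟩ he
    have he' : x⁻¹ * (s * x * s) = y⁻¹ * (s * y * s) := congrArg Subtype.val he
    have h1 := hfix (y * x⁻¹) (mul_mem hy (inv_mem hx)) (by
      calc s * (y * x⁻¹) * s = s * y * (s * s) * x⁻¹ * s := by rw [hs, mul_one]; group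
        _ = y * (y⁻¹ * (s * y * s)) * (s * x⁻¹ * s) := by group
        _ = y * (x⁻¹ * (s * x * s)) * (s * x⁻¹ * s) := by rw [he']
        _ = y * x⁻¹ * (s * x * (s * s) * x⁻¹ * s) := by group
        _ = _ := by
          rw [hs, mul_one, mul_inv_cancel_right, hs, mul_one])
    exact Subtype.ext (mul_inv_eq_one.1 h1).symm
  intro x hx
  obtain ⟨⟨y, hy⟩, hyx⟩ := Finite.surjective_of_injective hinj ⟨x, hx⟩
  have hyx' : y⁻¹ * (s * y * s) = x := congrArg Subtype.val hyx
  rw [← hyx']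
  calc s * (y⁻¹ * (s * y * s)) * s = s * y⁻¹ * s * y * (s * s) := by group
    _ = s * y⁻¹ * s * y := by rw [hs, mul_one]
    _ = (y⁻¹ * (s * y * s))⁻¹ := by
      rw [mul_inv_rev, mul_inv_rev, mul_inv_rev, inv_inv, inv_eq_of_mul_eq_one_right hs]
      group

section general

variable {F V : Type*} [Field F] [Finite F] [AddCommGroup V] [Module F V] [Finite V]
  [FiniteDimensional F V] {Q : QuadraticForm F V}

theorem tvec_neg (u : V) : tvec Q (-u) = tvec Q u := orth_ext fun x => by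
  simp [tvec, orth_mul_apply, refl_apply, QuadraticMap.map_neg, polar_neg_left]

theorem tvec_frame {n : ℕ} {p : Fin n → V} (hp : OFam Q p) (i j : Fin n) :
    (tvec Q (p i) : V ≃ₗ[F] V) (p j) = if i = j then p j else -p j := by
  by_cases h : i = j
  · rw [if_pos h, h, tvec_self (hp.ne j)]
  · rw [if_neg h, tvec_perp (hp.orth i j h)]

theorem tvec_commute {n : ℕ} {p : Fin n → V} (hp : OFam Q p) (i j : Fin n) :
    tvec Q (p i) * tvec Q (p j) = tvec Q (p j) * tvec Q (p i) := by
  refine mul_inv_eq_iff_eq_mul.1 ?_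
  rw [tvec_conj, tvec_frame hp]
  split_ifs
  · rfl
  · exact tvec_neg _

/-- Isometries agreeing on an orthogonal basis are equal. -/
theorem ext_frame (hQ : (polarBilin Q).Nondegenerate) (h2 : (2 : F) ≠ 0) {n : ℕ} {p : Fin n → V}
    (hp : OFam Q p) (hn : n = finrank F V) {g g' : orth Q}
    (h : ∀ i, (g : V ≃ₗ[F] V) (p i) = (g' : V ≃ₗ[F] V) (p i)) : g = g' := by
  refine orth_ext fun x => sub_eq_zero.1 ?_
  refine (g : V ≃ₗ[F] V).symm.injective ?_
  rw [map_zero]
  refine hp.eq_zero hQ h2 hn fun i => ?_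
  rw [← orth_polar g, LinearEquiv.apply_symm_apply, polar_sub_right, orth_polar, h, orth_polar,
    sub_self]

theorem tvec_mul_frame (hQ : (polarBilin Q).Nondegenerate) (h2 : (2 : F) ≠ 0) (h3 : finrank F V = 3)
    {p : Fin 3 → V} (hp : OFam Q p) {i j k : Fin 3} (hij : i ≠ j) (hik : i ≠ k) (hjk : j ≠ k) :
    tvec Q (p i) * tvec Q (p j) = tvec Q (p k) := by
  refine ext_frame hQ h2 hp h3.symm fun l => ?_
  rw [orth_mul_apply, tvec_frame hp j l]
  have hl : l = i ∨ l = j ∨ l = k := by revert hij hik hjk; revert i j k l; decide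
  rcases hl with rfl | rfl | rfl
  · rw [if_neg hij.symm, map_neg, tvec_frame hp, if_pos rfl, tvec_frame hp, if_neg hik.symm]
  · rw [if_pos rfl, tvec_frame hp, if_neg hij, tvec_frame hp, if_neg hjk.symm]
  · rw [if_neg hjk, map_neg, tvec_frame hp, if_neg hik, neg_neg, tvec_frame hp, if_pos rfl]

/-- The matrix of an isometry on the span of two orthogonal vectors. -/
noncomputable def pm (Q : QuadraticForm F V) (p : Fin 2 → V) (x : orth Q) : Matrix (Fin 2) (Fin 2) F :=
  fun r c => polar Q (p r) ((x : V ≃ₗ[F] V) (p c)) / (2 * Q (p r))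

theorem pm_exp (h2 : (2 : F) ≠ 0) {p : Fin 2 → V} (hp : OFam Q p) {x : orth Q} {c : Fin 2}
    (hx : (x : V ≃ₗ[F] V) (p c) ∈ Submodule.span F (Set.range p)) :
    (x : V ≃ₗ[F] V) (p c) = ∑ r, pm Q p x r c • p r := by
  obtain ⟨f, hf⟩ := (Submodule.mem_span_range_iff_exists_fun F).1 hx
  rw [← sub_eq_zero]
  have key : ∀ r, polar Q (p r) (∑ k, (f k - pm Q p x k c) • p k) = 0 := fun r => by
    have hr : ∀ g : Fin 2 → F, polar Q (p r) (∑ k, g k • p k) = g r * (2 * Q (p r)) := fun g => by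
      rw [← polarBilin_apply_apply, map_sum, Finset.sum_eq_single r]
      · rw [map_smul, polarBilin_apply_apply, polar_self', smul_eq_mul]
      · intro k _ hk
        rw [map_smul, polarBilin_apply_apply, hp.orth r k hk.symm, smul_zero]
      · simp
    rw [hr, sub_mul, pm, div_mul_cancel₀ _ (mul_ne_zero h2 (hp.ne r)), ← hf, hr, sub_self]
  have h0 := hp.coeff_zero h2 _ key
  rw [← hf, ← Finset.sum_sub_distrib]
  exact Finset.sum_eq_zero fun k _ => by rw [← sub_smul, h0, zero_smul]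

theorem pm_mul (h2 : (2 : F) ≠ 0) {p : Fin 2 → V} (hp : OFam Q p) (x : orth Q) {y : orth Q}
    (hy : ∀ c, (y : V ≃ₗ[F] V) (p c) ∈ Submodule.span F (Set.range p)) :
    pm Q p (x * y) = pm Q p x * pm Q p y := by
  ext r c
  rw [Matrix.mul_apply, Fin.sum_univ_two]
  show polar Q (p r) (((x * y : orth Q) : V ≃ₗ[F] V) (p c)) / (2 * Q (p r)) = _
  rw [orth_mul_apply, pm_exp h2 hp (hy c), Fin.sum_univ_two, map_add, map_smul, map_smul,
    polar_add_right, polar_smul_right, polar_smul_right, smul_eq_mul, smul_eq_mul]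
  simp only [pm]
  ring

theorem pm_one (h2 : (2 : F) ≠ 0) {p : Fin 2 → V} (hp : OFam Q p) : pm Q p 1 = 1 := by
  ext r c
  show polar Q (p r) (p c) / (2 * Q (p r)) = _
  by_cases h : r = c
  · rw [h, Matrix.one_apply_eq, polar_self', div_self (mul_ne_zero h2 (hp.ne c))]
  · rw [Matrix.one_apply_ne h, hp.orth r c h, zero_div]

/-- Rotations of a non-degenerate plane commute. -/
theorem pm_commute (h2 : (2 : F) ≠ 0) {p : Fin 2 → V} (hp : OFam Q p) {x y : orth Q}
    (hx : ∀ c, (x : V ≃ₗ[F] V) (p c) ∈ Submodule.span F (Set.range p))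
    (hy : ∀ c, (y : V ≃ₗ[F] V) (p c) ∈ Submodule.span F (Set.range p))
    (dx : (pm Q p x).det = 1) (dy : (pm Q p y).det = 1) (c : Fin 2) :
    ((x * y : orth Q) : V ≃ₗ[F] V) (p c) = ((y * x : orth Q) : V ≃ₗ[F] V) (p c) := by
  have rot : ∀ z : orth Q, (∀ c, (z : V ≃ₗ[F] V) (p c) ∈ Submodule.span F (Set.range p)) →
      (pm Q p z).det = 1 → pm Q p z 1 1 = pm Q p z 0 0 ∧
        pm Q p z 0 1 * Q (p 0) = -(pm Q p z 1 0 * Q (p 1)) := by
    intro z hz hd
    have h01 : polar Q (p 0) (p 1) = 0 := hp.orth 0 1 (by decide)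
    have h10 : polar Q (p 1) (p 0) = 0 := hp.orth 1 0 (by decide)
    have e : ∀ c c', polar Q ((z : V ≃ₗ[F] V) (p c)) ((z : V ≃ₗ[F] V) (p c')) =
        2 * (pm Q p z 0 c * pm Q p z 0 c' * Q (p 0) + pm Q p z 1 c * pm Q p z 1 c' * Q (p 1)) := by
      intro c c'
      rw [pm_exp h2 hp (hz c), pm_exp h2 hp (hz c'), Fin.sum_univ_two, Fin.sum_univ_two]
      simp only [polar_add_left, polar_add_right, polar_smul_left, polar_smul_right, polar_self',
        h01, h10, smul_eq_mul]
      ring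
    have e01 := e 0 1
    have e11 := e 1 1
    rw [orth_polar, h01] at e01
    rw [orth_polar, polar_self'] at e11
    have q1 : pm Q p z 0 0 * pm Q p z 0 1 * Q (p 0) + pm Q p z 1 0 * pm Q p z 1 1 * Q (p 1) = 0 :=
      mul_left_cancel₀ h2 (by linear_combination -e01)
    have q2 : pm Q p z 0 1 * pm Q p z 0 1 * Q (p 0) + pm Q p z 1 1 * pm Q p z 1 1 * Q (p 1) = Q (p 1) :=
      mul_left_cancel₀ h2 (by linear_combination -e11)
    rw [Matrix.det_fin_two] at hd
    refine ⟨mul_right_cancel₀ (hp.ne 1) ?_, ?_⟩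
    · linear_combination -(pm Q p z 1 1 * Q (p 1)) * hd - pm Q p z 0 1 * q1 + pm Q p z 0 0 * q2
    · linear_combination -(pm Q p z 0 1 * Q (p 0)) * hd + pm Q p z 1 1 * q1 - pm Q p z 1 0 * q2
  obtain ⟨x1, x2⟩ := rot x hx dx
  obtain ⟨y1, y2⟩ := rot y hy dy
  have hM : pm Q p x * pm Q p y = pm Q p y * pm Q p x := by
    ext i j
    fin_cases i <;> fin_cases j <;>
      simp only [Fin.zero_eta, Fin.mk_one, Fin.isValue, Matrix.mul_apply, Fin.sum_univ_two, x1, y1]
    · refine mul_right_cancel₀ (hp.ne 0) ?_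
      linear_combination pm Q p y 1 0 * x2 - pm Q p x 1 0 * y2
    · ring
    · ring
    · refine mul_right_cancel₀ (hp.ne 0) ?_
      linear_combination pm Q p x 1 0 * y2 - pm Q p y 1 0 * x2
  have hsp : ∀ {u v : orth Q}, (∀ c, (u : V ≃ₗ[F] V) (p c) ∈ Submodule.span F (Set.range p)) →
      (∀ c, (v : V ≃ₗ[F] V) (p c) ∈ Submodule.span F (Set.range p)) →
      ((u * v : orth Q) : V ≃ₗ[F] V) (p c) ∈ Submodule.span F (Set.range p) := by
    intro u v hu hv
    rw [orth_mul_apply, pm_exp h2 hp (hv c), map_sum]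
    exact Submodule.sum_mem _ fun r _ => by rw [map_smul]; exact Submodule.smul_mem _ _ (hu r)
  rw [pm_exp h2 hp (hsp hx hy), pm_exp h2 hp (hsp hy hx), pm_mul h2 hp x hy, pm_mul h2 hp y hx, hM]

end general

variable {F V A B : Type*} [Field F] [Finite F] [AddCommGroup V] [Module F V] [Finite V]
  [FiniteDimensional F V] [AddCommGroup A] [Module F A] [Finite A] [FiniteDimensional F A]
  [AddCommGroup B] [Module F B] [Finite B] [FiniteDimensional F B]
  {Q : QuadraticForm F V} {QA : QuadraticForm F A} {QB : QuadraticForm F B}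
  {pu : A →ₗ[F] B →ₗ[F] V}

namespace Sq

variable {T : TO Q QA QB pu} {Wσ : Sw T} {M : Subgroup (orth Q)} (S : Sq T Wσ M)
include S

/-- A vector orthogonal to the products of two orthogonal bases vanishes. -/
theorem eq_zero_of_frames {a : Fin 3 → A} (ha : OFam QA a) {b : Fin 3 → B} (hb : OFam QB b) {v : V}
    (h : ∀ i j, polar Q v (pu (a i) (b j)) = 0) : v = 0 := by
  refine T.span v fun x u => ?_
  rw [← T.adj']
  have h1 : ∀ j, T.C (b j) v = 0 := fun j => ha.eq_zero T.ndA T.two S.a3.symm fun i => by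
    rw [polar_comm, T.adj, h]
  rw [hb.eq_zero T.ndB T.two S.b3.symm (x := T.C' x v) fun j => by
    rw [polar_comm, T.adj', ← T.adj, h1, polar_zero_left], polar_zero_left]

set_option maxHeartbeats 800000 in
/-- Elements commuting with two involutions in general position are in the stabiliser. -/
theorem klein {a : Fin 3 → A} (ha : OFam QA a) {b : Fin 3 → B} (hb : OFam QB b)
    (hS : ∀ i, tvec QA (a i) ∈ commutator (orth QA)) {x : orth Q} (hx : x ∈ M)
    (h0 : x * T.pr (tvec QA (a 0), tvec QB (b 0)) = T.pr (tvec QA (a 0), tvec QB (b 0)) * x)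
    (h1 : x * T.pr (tvec QA (a 1), tvec QB (b 1)) = T.pr (tvec QA (a 1), tvec QB (b 1)) * x) :
    x ∈ Wσ.N := by
  classical
  let d : Fin 3 → orth Q := fun l => T.pr (tvec QA (a l), tvec QB (b l))
  set X := M ⊓ Subgroup.centralizer ({d 0, d 1} : Set (orth Q))
  have hXmem : ∀ {z}, z ∈ X ↔ z ∈ M ∧ z * d 0 = d 0 * z ∧ z * d 1 = d 1 * z := by
    intro z
    rw [Subgroup.mem_inf, Subgroup.mem_centralizer_iff]
    constructor
    · exact fun h => ⟨h.1, (h.2 _ (Or.inl rfl)).symm, (h.2 _ (Or.inr rfl)).symm⟩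
    · rintro ⟨h, e0, e1⟩
      exact ⟨h, by rintro _ (rfl | rfl); exacts [e0.symm, e1.symm]⟩
  let P : Fin 3 → Fin 3 → V := fun i j => pu (a i) (b j)
  have hPne : ∀ i j, Q (P i j) ≠ 0 := fun i j => by
    rw [T.Q_pu]; exact mul_ne_zero T.two (mul_ne_zero (ha.ne i) (hb.ne j))
  have hP0 : ∀ i j, P i j ≠ 0 := fun i j h => hPne i j (by rw [h, QuadraticMap.map_zero])
  have hPorth : ∀ i j k m, ¬ (i = k ∧ j = m) → polar Q (P i j) (P k m) = 0 := by
    intro i j k m h
    rw [T.form]
    by_cases hik : i = k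
    · rw [hb.orth j m fun hjm => h ⟨hik, hjm⟩, mul_zero]
    · rw [ha.orth i k hik, zero_mul]
  let sg : Fin 3 → Fin 3 → Fin 3 → F := fun l i j =>
    if (decide (l = i) == decide (l = j)) then 1 else -1
  have hd : ∀ l i j, (d l : V ≃ₗ[F] V) (P i j) = sg l i j • P i j := by
    intro l i j
    simp only [d, P, sg, T.pr_pu, tvec_frame ha, tvec_frame hb]
    by_cases h : l = i <;> by_cases h' : l = j <;>
      simp only [h, h', decide_true, decide_false, if_true, if_false, Bool.false_beq, Bool.true_beq,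
        Bool.not_false, Bool.not_true, Bool.false_eq_true] <;> (try split_ifs) <;> simp_all
  have hpl : ∀ z ∈ X, ∀ i j, i ≠ j → ∀ c, (z : V ≃ₗ[F] V) (![P i j, P j i] c) ∈
      Submodule.span F (Set.range ![P i j, P j i]) := by
    intro z hz i j hij c
    obtain ⟨-, e0, e1⟩ := hXmem.1 hz
    set w := (z : V ≃ₗ[F] V) (![P i j, P j i] c)
    have hw : ∀ l, l = 0 ∨ l = 1 → (d l : V ≃ₗ[F] V) w = sg l i j • w := by
      intro l hl
      have he : z * d l = d l * z := by rcases hl with rfl | rfl <;> assumption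
      have hsg : sg l j i = sg l i j := by simp only [sg, Bool.beq_comm]
      rw [← orth_mul_apply, ← he, orth_mul_apply,
        show (d l : V ≃ₗ[F] V) (![P i j, P j i] c) = sg l i j • ![P i j, P j i] c by
          fin_cases c <;> simp [hd, hsg], map_smul]
    set w' := w - (polar Q (P i j) w / (2 * Q (P i j))) • P i j -
      (polar Q (P j i) w / (2 * Q (P j i))) • P j i
    have hzero : w' = 0 := by
      refine S.eq_zero_of_frames ha hb fun k m => ?_
      change polar Q w' (P k m) = 0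
      simp only [w', polar_sub_left, polar_smul_left, smul_eq_mul]
      by_cases h1 : k = i ∧ m = j
      · obtain ⟨rfl, rfl⟩ := h1
        rw [hPorth m k k m (fun h => hij h.2), mul_zero, sub_zero, polar_self',
          div_mul_cancel₀ _ (mul_ne_zero T.two (hPne k m)), polar_comm (⇑Q) w, sub_self]
      by_cases h2 : k = j ∧ m = i
      · obtain ⟨rfl, rfl⟩ := h2
        rw [hPorth m k k m (fun h => hij h.1), mul_zero, sub_zero, polar_self',
          div_mul_cancel₀ _ (mul_ne_zero T.two (hPne k m)), polar_comm (⇑Q) w, sub_self]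
      rw [hPorth i j k m (fun h => h1 ⟨h.1.symm, h.2.symm⟩),
        hPorth j i k m (fun h => h2 ⟨h.1.symm, h.2.symm⟩), mul_zero, mul_zero, sub_zero, sub_zero]
      obtain ⟨l, hl, hne⟩ : ∃ l, (l = 0 ∨ l = 1) ∧
          (decide (l = i) == decide (l = j)) ≠ (decide (l = k) == decide (l = m)) := by
        clear * - hij h1 h2
        revert i j k m
        decide
      have e := orth_polar (d l) w (P k m)
      rw [hw l hl, hd, polar_smul_left, polar_smul_right, smul_eq_mul, smul_eq_mul, ← mul_assoc] at e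
      have hs : sg l i j * sg l k m = -1 := by
        simp only [sg]
        revert hne
        cases (decide (l = i) == decide (l = j)) <;> cases (decide (l = k) == decide (l = m)) <;>
          simp
      rw [hs] at e
      exact (mul_eq_zero.1 (show (2 : F) * polar Q w (P k m) = 0 by linear_combination -e)).resolve_left
        T.two
    simp only [w', sub_sub, sub_eq_zero] at hzero
    rw [hzero]
    exact add_mem (Submodule.smul_mem _ _ (Submodule.subset_span ⟨0, rfl⟩))
      (Submodule.smul_mem _ _ (Submodule.subset_span ⟨1, rfl⟩))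
  have hfam : ∀ {i j}, i ≠ j → OFam Q ![P i j, P j i] := fun {i j} hij =>
    oFam_two (hPne i j) (hPne j i) (hPorth i j j i fun h => hij h.1)
  let D : Fin 3 → Fin 3 → orth Q → F := fun i j z => (pm Q ![P i j, P j i] z).det
  have hDmul : ∀ {i j}, i ≠ j → ∀ z, ∀ z' ∈ X, D i j (z * z') = D i j z * D i j z' := by
    intro i j hij z z' hz'
    simp only [D, pm_mul T.two (hfam hij) z (hpl z' hz' i j hij), Matrix.det_mul]
  have hDone : ∀ {i j}, i ≠ j → D i j 1 = 1 := fun {i j} hij => by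
    simp only [D, pm_one T.two (hfam hij), Matrix.det_one]
  let K₁ : Subgroup (orth Q) :=
    { carrier := {z | z ∈ X ∧ ∀ i j, i ≠ j → D i j z = 1}
      one_mem' := ⟨one_mem _, fun i j hij => hDone hij⟩
      mul_mem' := fun {z z'} hz hz' => ⟨mul_mem hz.1 hz'.1, fun i j hij => by
        rw [hDmul hij z z' hz'.1, hz.2 i j hij, hz'.2 i j hij, mul_one]⟩
      inv_mem' := fun {z} hz => ⟨inv_mem hz.1, fun i j hij => by
        have h := hDmul hij z⁻¹ z hz.1
        rw [inv_mul_cancel, hDone hij, hz.2 i j hij, mul_one] at h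
        exact h.symm⟩ }
  let K₂ : Subgroup (orth Q) :=
    { carrier := {z | z ∈ X ∧ ∀ i j, i ≠ j → (z : V ≃ₗ[F] V) (P i j) = P i j}
      one_mem' := ⟨one_mem _, fun i j hij => rfl⟩
      mul_mem' := fun {z z'} hz hz' => ⟨mul_mem hz.1 hz'.1, fun i j hij => by
        rw [orth_mul_apply, hz'.2 i j hij, hz.2 i j hij]⟩
      inv_mem' := fun {z} hz => ⟨inv_mem hz.1, fun i j hij => by
        conv_lhs => rw [← hz.2 i j hij, orth_inv_apply_apply]⟩ }
  let s : Fin 3 → orth Q := fun l => T.kL (tvec QA (a l))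
  have hs2 : ∀ l, s l * s l = 1 := fun l => by simp only [s, ← map_mul, tvec_sq, map_one]
  have hsX : ∀ l, s l ∈ X := fun l => by
    have e : s l = T.pr (tvec QA (a l), 1) := by rw [T.pr_apply, map_one, mul_one]
    refine hXmem.2 ⟨S.kL_tvec_mem (hS l), ?_, ?_⟩ <;>
      simp only [e, d, ← map_mul, Prod.mk_mul_mk, tvec_commute ha, one_mul, mul_one]
  have hsP : ∀ l i j, (s l : V ≃ₗ[F] V) (P i j) = (if l = i then (1 : F) else -1) • P i j := by
    intro l i j
    simp only [s, P, T.kL_pu, tvec_frame ha]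
    split_ifs <;> simp
  have hsK₁ : ∀ l, ∀ z ∈ K₁, s l * z * s l ∈ K₁ := fun l z hz =>
    ⟨mul_mem (mul_mem (hsX l) hz.1) (hsX l), fun i j hij => by
      rw [hDmul hij _ _ (hsX l), hDmul hij _ _ hz.1, hz.2 i j hij, mul_one, ← hDmul hij _ _ (hsX l),
        hs2, hDone hij]⟩
  have hsK₂ : ∀ l, ∀ z ∈ K₂, s l * z * s l ∈ K₂ := fun l z hz =>
    ⟨mul_mem (mul_mem (hsX l) hz.1) (hsX l), fun i j hij => by
      rw [orth_mul_apply, orth_mul_apply, hsP, map_smul, hz.2 i j hij, map_smul, hsP, smul_smul]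
      split_ifs <;> simp⟩
  have hcent : ∀ l, ∀ z ∈ X, s l * z * s l = z → z ∈ T.PG := fun l z hz hfix => by
    refine S.centralizer_tvec (ha.ne l) (hXmem.1 hz).1 ?_
    change z * s l = s l * z
    conv_lhs => rw [← hfix, mul_assoc, hs2, mul_one]
  have hfix₂ : ∀ l, ∀ z ∈ K₂, s l * z * s l = z → z = 1 := by
    intro l z hz hfix
    obtain ⟨g, k, -, rfl⟩ := S.dec (hcent l z hz.1 hfix)
    have hij : ∀ i j, i ≠ j → pu ((g : A ≃ₗ[F] A) (a i)) ((k : B ≃ₗ[F] B) (b j)) = P i j :=
      fun i j hne => by rw [← T.pr_pu]; exact hz.2 i j hne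
    have hoth : ∀ i : Fin 3, ∃ j, i ≠ j := by decide
    have hg : ∀ i, ∃ t : F, (g : A ≃ₗ[F] A) (a i) = t • a i := by
      intro i
      obtain ⟨j, hne⟩ := hoth i
      have h := congrArg (T.C (b j)) (hij i j hne)
      simp only [P, T.C_pu, polar_self'] at h
      have hne' : polar QB ((k : B ≃ₗ[F] B) (b j)) (b j) ≠ 0 := fun h0 => by
        rw [h0, zero_smul, eq_comm, smul_eq_zero] at h
        rcases h with h | h
        · exact mul_ne_zero T.two (hb.ne j) h
        · exact ha.ne i (by rw [h, QuadraticMap.map_zero])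
      exact ⟨(polar QB ((k : B ≃ₗ[F] B) (b j)) (b j))⁻¹ * (2 * QB (b j)), by
        rw [mul_smul, ← h, inv_smul_smul₀ hne']⟩
    have hk : ∀ j, ∃ t : F, (k : B ≃ₗ[F] B) (b j) = t • b j := by
      intro j
      obtain ⟨i, hne⟩ := hoth j
      have h := congrArg (T.C' (a i)) (hij i j hne.symm)
      simp only [P, T.C'_pu, polar_self'] at h
      have hne' : polar QA ((g : A ≃ₗ[F] A) (a i)) (a i) ≠ 0 := fun h0 => by
        rw [h0, zero_smul, eq_comm, smul_eq_zero] at h
        rcases h with h | h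
        · exact mul_ne_zero T.two (ha.ne i) h
        · exact hb.ne j (by rw [h, QuadraticMap.map_zero])
      exact ⟨(polar QA ((g : A ≃ₗ[F] A) (a i)) (a i))⁻¹ * (2 * QA (a i)), by
        rw [mul_smul, ← h, inv_smul_smul₀ hne']⟩
    choose lam hlam using hg
    choose μ hμ using hk
    have hlm : ∀ i j, i ≠ j → lam i * μ j = 1 := fun i j hne => by
      have h := hij i j hne
      rw [hlam, hμ] at h
      simp only [map_smul, LinearMap.smul_apply, smul_smul] at h
      rw [mul_comm]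
      exact smul_left_injective F (hP0 i j) (h.trans (one_smul F _).symm)
    have hall : ∀ i j, lam i * μ j = 1 := by
      intro i j
      by_cases hne : i = j
      · subst hne
        obtain ⟨j', k', h1, h2, h3⟩ : ∃ j' k' : Fin 3, i ≠ j' ∧ i ≠ k' ∧ k' ≠ j' := by
          clear * - i
          revert i; decide
        have e1 := hlm i j' h1
        have e2 := hlm k' i h2.symm
        have e3 := hlm k' j' h3
        calc lam i * μ i = lam i * μ i * (lam k' * μ j') := by rw [e3, mul_one]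
          _ = lam i * μ j' * (lam k' * μ i) := by ring
          _ = 1 := by rw [e1, e2, one_mul]
      · exact hlm i j hne
    refine orth_ext fun v => sub_eq_zero.1 ?_
    refine (T.pr (g, k) : V ≃ₗ[F] V).symm.injective ?_
    rw [map_zero]
    refine S.eq_zero_of_frames ha hb fun i j => ?_
    have hfixP : (T.pr (g, k) : V ≃ₗ[F] V) (P i j) = P i j := by
      simp only [P, T.pr_pu, hlam, hμ, map_smul, LinearMap.smul_apply, smul_smul, mul_comm (μ j), hall,
        one_smul]
    rw [← orth_polar (T.pr (g, k)), LinearEquiv.apply_symm_apply, hfixP, polar_sub_left]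
    conv_lhs => arg 1; arg 3; rw [← hfixP]
    rw [orth_polar]
    exact sub_self _
  have hK₂ : ∀ z ∈ K₂, z = 1 := by
    intro z hz
    have i0 := inverts_of_fpf (hs2 0) (hsK₂ 0) (hfix₂ 0)
    have i1 := inverts_of_fpf (hs2 1) (hsK₂ 1) (hfix₂ 1)
    refine hfix₂ 2 z hz ?_
    have h01 : s 0 * s 1 = s 2 := by
      simp only [s, ← map_mul, tvec_mul_frame T.ndA T.two S.a3 ha (by decide : (0 : Fin 3) ≠ 1)
        (by decide : (0 : Fin 3) ≠ 2) (by decide)]
    have h10 : s 1 * s 0 = s 2 := by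
      simp only [s, ← map_mul, tvec_mul_frame T.ndA T.two S.a3 ha (by decide : (1 : Fin 3) ≠ 0)
        (by decide : (1 : Fin 3) ≠ 2) (by decide)]
    calc s 2 * z * s 2 = s 0 * (s 1 * z * s 1) * s 0 := by
          conv_lhs => arg 2; rw [← h10]
          rw [← h01]; group
      _ = s 0 * z⁻¹ * s 0 := by rw [i1 z hz]
      _ = z := by rw [i0 _ (inv_mem hz), inv_inv]
  have habel : ∀ z ∈ K₁, ∀ z' ∈ K₁, z * z' = z' * z := by
    intro z hz z' hz'
    have hmem : z * z' * (z' * z)⁻¹ ∈ K₂ := by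
      refine ⟨mul_mem (mul_mem hz.1 hz'.1) (inv_mem (mul_mem hz'.1 hz.1)), fun i j hij => ?_⟩
      have hw := hpl _ (inv_mem (mul_mem hz'.1 hz.1)) i j hij 0
      rw [show (![P i j, P j i] : Fin 2 → V) 0 = P i j from rfl] at hw
      obtain ⟨f, hf⟩ := (Submodule.mem_span_range_iff_exists_fun F).1 hw
      rw [orth_mul_apply (z * z'), ← hf]
      have e : ∀ c, ((z * z' : orth Q) : V ≃ₗ[F] V) (![P i j, P j i] c) =
          ((z' * z : orth Q) : V ≃ₗ[F] V) (![P i j, P j i] c) :=
        pm_commute T.two (hfam hij) (hpl z hz.1 i j hij) (hpl z' hz'.1 i j hij) (hz.2 i j hij) (hz'.2 i j hij)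
      rw [map_sum]
      simp only [map_smul, e]
      rw [← Finset.sum_congr rfl fun c _ => map_smul ((z' * z : orth Q) : V ≃ₗ[F] V) (f c) _, ← map_sum,
        hf, orth_apply_inv_apply]
    have := hK₂ _ hmem
    rwa [mul_inv_eq_one] at this
  have hK₁N : ∀ z ∈ K₁, z ∈ Wσ.N := by
    intro z hz
    have hpp : ∀ l, z * (s l * z * s l) ∈ T.PG := fun l => by
      refine hcent l _ (mul_mem hz.1 (hsK₁ l z hz).1) ?_
      calc s l * (z * (s l * z * s l)) * s l = s l * z * s l * z * (s l * s l) := by group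
        _ = z * (s l * z * s l) := by rw [hs2, mul_one, habel _ (hsK₁ l z hz) z hz]
    have h10 : s 1 * s 0 = s 2 := by
      simp only [s, ← map_mul, tvec_mul_frame T.ndA T.two S.a3 ha (by decide : (1 : Fin 3) ≠ 0)
        (by decide : (1 : Fin 3) ≠ 2) (by decide)]
    have hsP' : ∀ l, s l ∈ T.PG := fun l => T.kL_mem_PG _
    -- conjugation by the product of two of the involutions fixes the element modulo the pure ones
    have hsi : ∀ l, (s l)⁻¹ = s l := fun l => inv_eq_of_mul_eq_one_right (hs2 l)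
    have e2 : z⁻¹ * (s 2 * z * s 2) ∈ T.PG := by
      have p1 : z⁻¹ * (s 1 * z * s 1)⁻¹ ∈ T.PG := by
        have h := inv_mem (hpp 1)
        rwa [habel _ hz _ (hsK₁ 1 z hz), mul_inv_rev] at h
      have p0 : s 1 * (z * (s 0 * z * s 0)) * s 1 ∈ T.PG := mul_mem (mul_mem (hsP' 1) (hpp 0)) (hsP' 1)
      have e : z⁻¹ * (s 2 * z * s 2) = z⁻¹ * (s 1 * z * s 1)⁻¹ * (s 1 * (z * (s 0 * z * s 0)) * s 1) := by
        have h2' : s 2 = s 0 * s 1 := by
          rw [← hsi 2, ← h10, mul_inv_rev, hsi, hsi]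
        calc z⁻¹ * (s 2 * z * s 2) = z⁻¹ * (s 1 * (s 0 * z * s 0) * s 1) := by
              nth_rw 1 [← h10]; rw [h2']; group
          _ = z⁻¹ * s 1 * (z⁻¹ * (s 1 * s 1) * z) * (s 0 * z * s 0) * s 1 := by
              rw [hs2, mul_one, inv_mul_cancel]; group
          _ = _ := by rw [mul_inv_rev, mul_inv_rev, hsi]; group
      rw [e]
      exact mul_mem p1 p0
    have hconj : z⁻¹ * s 2 * z ∈ T.PG := by
      have := mul_mem e2 (hsP' 2)
      rwa [show z⁻¹ * (s 2 * z * s 2) * s 2 = z⁻¹ * s 2 * z * (s 2 * s 2) by group, hs2, mul_one] at this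
    have := S.fusion_kL (ha.ne 2) (S.kL_tvec_mem (hS 2)) (inv_mem (hXmem.1 hz.1).1)
      (Wσ.le_N (by rwa [inv_inv]))
    simpa using inv_mem this
  have hxX : x ∈ X := hXmem.2 ⟨hx, h0, h1⟩
  have hc : x * s 0 * x⁻¹ * s 0 ∈ K₁ := by
    refine ⟨mul_mem (mul_mem (mul_mem hxX (hsX 0)) (inv_mem hxX)) (hsX 0), fun i j hij => ?_⟩
    rw [hDmul hij _ _ (hsX 0), hDmul hij _ _ (inv_mem hxX), hDmul hij _ _ (hsX 0)]
    have e1 := hDmul hij x x⁻¹ (inv_mem hxX)
    have e2 := hDmul hij (s 0) (s 0) (hsX 0)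
    rw [mul_inv_cancel, hDone hij] at e1
    rw [hs2, hDone hij] at e2
    linear_combination (-(D i j (s 0)) * D i j (s 0)) * e1 - e2
  have hconj := mul_mem (hK₁N _ hc) (Wσ.le_N (T.kL_mem_PG (tvec QA (a 0))))
  rw [show T.kL (tvec QA (a 0)) = s 0 from rfl, mul_assoc _ (s 0), hs2, mul_one] at hconj
  exact S.fusion_kL (ha.ne 0) (S.kL_tvec_mem (hS 0)) hx hconj

end Sq

end Cfsg.Agent.H1.OmegaNine.Tensor
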