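import Cfsg.Agent.H1.OmegaNine.Tensor.Commutant
import Cfsg.Agent.H6.OmegaNine.ThreeCount

/-!
Overgroups of the stabiliser of `O₃(q) ⊗ O₃(q)` in `Ω₉(q)`: the counting of involutions.
-/

set_option autoImplicit false
set_option linter.unusedSectionVars false

namespace Cfsg.Agent.H1.OmegaNine.Tensor

open QuadraticMap hiding sq
open Cfsg.Agent.H5 Cfsg.Agent.H19.OrthTensor Module

variable {F V A B : Type*} [Field F] [Finite F] [AddCommGroup V] [Module F V] [Finite V]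
  [FiniteDimensional F V] [AddCommGroup A] [Module F A] [Finite A] [FiniteDimensional F A]
  [AddCommGroup B] [Module F B] [Finite B] [FiniteDimensional F B]
  {Q : QuadraticForm F V} {QA : QuadraticForm F A} {QB : QuadraticForm F B}
  {pu : A →ₗ[F] B →ₗ[F] V}

namespace Sq

variable {T : TO Q QA QB pu} {Wσ : Sw T} {M : Subgroup (orth Q)} (S : Sq T Wσ M)
include S

theorem tvec_pow_omega {w : B} (i : ℕ) :
    tvec QB w ^ i = if Even i then 1 else tvec QB w := by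
  rcases i.even_or_odd with ⟨j, rfl⟩ | ⟨j, rfl⟩
  · rw [if_pos ⟨j, rfl⟩, ← two_mul, pow_mul, pow_two, tvec_sq, one_pow]
  · rw [if_neg (by simp), pow_succ, pow_mul, pow_two, tvec_sq, one_pow, one_mul]

/-- An outer involution does not normalise an involution of the second factor. -/
theorem no_tvec_component {y₀ : orth Q} (hy : y₀ ∈ M) (hyN : y₀ ∉ Wσ.N) {w : B} (hw : QB w ≠ 0)
    (hSw : tvec QB w ∈ commutator (orth QB)) {g : orth QA} (hg : dick g = 1)
    (hlM : T.pr (g, tvec QB w) ∈ M) (hlc : y₀ * T.pr (g, tvec QB w) * y₀⁻¹ ∈ Wσ.N) : False := by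
  have hpow : ∀ i : ℕ, T.pr (g ^ i, tvec QB w ^ i) ∈ M ∧
      y₀ * T.pr (g ^ i, tvec QB w ^ i) * y₀⁻¹ ∈ Wσ.N := fun i => by
    rw [show ((g ^ i, tvec QB w ^ i) : orth QA × orth QB) = (g, tvec QB w) ^ i from rfl, map_pow,
      ← conj_pow]
    exact ⟨pow_mem hlM i, pow_mem hlc i⟩
  rcases (orderOf g).even_or_odd with ⟨i, hi⟩ | ho
  · have hi0 : 0 < i := by have := orderOf_pos g; omega
    have hd : ∀ m : ℕ, dick (g ^ m) = 1 := fun m => by
      induction m with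
      | zero => rw [pow_zero, dick_one]
      | succ m ih => rw [pow_succ, dick_mul_odd T.ndA T.two, ih, hg, one_mul]
    obtain ⟨v, hv, hgv⟩ := exists_tvec_eq T.ndA T.two S.a3 (hd i)
      (by rw [← pow_add, ← hi, pow_orderOf_eq_one]) fun h => by
        have := Nat.le_of_dvd hi0 (orderOf_dvd_of_pow_eq_one h)
        omega
    obtain ⟨hM, hc⟩ := hpow i
    rw [hgv, S.tvec_pow_omega] at hM hc
    have hO := (S.pr_omega (dick_tvec T.ndA T.two S.a3 hv)).1 (S.hOmega hM)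
    have hSv : tvec QA v ∈ commutator (orth QA) := by
      refine (mem_omega_iff T.ndA T.two).2 ⟨dick_tvec T.ndA T.two S.a3 hv, ?_⟩
      have hs : spin QB (if Even i then 1 else tvec QB w) = 1 := by
        split_ifs
        · exact map_one _
        · exact ((mem_omega_iff T.ndB T.two).1 hSw).2
      have h2 := hO.2
      rwa [hs, mul_one] at h2
    split_ifs at hc
    · rw [T.pr_apply, map_one, mul_one] at hc
      exact hyN (S.fusion_kL hv (S.kL_tvec_mem hSv) hy hc)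
    · exact hyN (S.fusion_pair hv hw hSv hSw hy hc)
  · obtain ⟨hM, hc⟩ := hpow (orderOf g)
    rw [pow_orderOf_eq_one, S.tvec_pow_omega, if_neg (Nat.not_even_iff_odd.2 ho), T.pr_apply,
      map_one, one_mul] at hc
    exact hyN (S.fusion_kR hw (S.swap.kL_tvec_mem hSw) hy hc)

set_option maxHeartbeats 800000 in
/-- All of `M` stabilises the factors. -/
theorem le_N : M ≤ Wσ.N := by
  classical
  obtain ⟨dA, hdA, hSA⟩ := exists_tvec_mem T.ndA T.two (by rw [S.a3]; decide)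
  obtain ⟨dB, hdB, hSB⟩ := exists_tvec_mem T.ndB T.two (by rw [S.b3]; decide)
  let DA := {t : orth QA | ∃ u, QA u = dA ∧ t = tvec QA u}
  let DB := {t : orth QB | ∃ u, QB u = dB ∧ t = tvec QB u}
  let f : DA × DB → orth Q := fun st => T.pr ((st.1 : orth QA), (st.2 : orth QB))
  set D := Set.range f with hD
  have hfinj : Function.Injective f := by
    rintro ⟨⟨s, u, hu, rfl⟩, ⟨t, ht⟩⟩ ⟨⟨s', u', hu', rfl⟩, ⟨t', ht'⟩⟩ h
    obtain ⟨h1, h2⟩ := S.pr_inj (dick_tvec T.ndA T.two S.a3 (by rw [hu]; exact hdA))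
      (dick_tvec T.ndA T.two S.a3 (by rw [hu']; exact hdA)) h
    exact Prod.ext (Subtype.ext h1) (Subtype.ext h2)
  have hcardD : Nat.card D = Nat.card DA * Nat.card DB := by
    rw [hD, Nat.card_range_of_injective hfinj, Nat.card_prod]
  have hq := S.q5
  have hcA : Nat.card F * (Nat.card F - 1) ≤ 2 * Nat.card DA := H6.OmegaNine.card_axes T.ndA T.two S.a3 hdA
  have hcB : Nat.card F * (Nat.card F - 1) ≤ 2 * Nat.card DB := H6.OmegaNine.card_axes T.ndB T.two S.b3 hdB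
  have hbig : ∀ K : ℕ, 4 * K ≤ Nat.card F * (Nat.card F ^ 2 - 1) → 2 * K < Nat.card D := by
    intro K hK
    rw [hcardD]
    obtain ⟨m, hm⟩ := Nat.exists_eq_add_of_le hq
    rw [hm] at hcA hcB hK
    have e1 : 5 + m - 1 = m + 4 := by omega
    have e2 : (5 + m) ^ 2 - 1 = (m + 4) * (m + 6) := by
      rw [Nat.sub_eq_iff_eq_add (Nat.one_le_pow _ _ (by omega))]; ring
    rw [e1] at hcA hcB
    rw [e2] at hK
    have h3 := Nat.mul_le_mul hcA hcB
    have h4 : 2 * ((5 + m) * ((m + 4) * (m + 6))) < (5 + m) * (m + 4) * ((5 + m) * (m + 4)) := by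
      have : 2 * (m + 6) < (5 + m) * (m + 4) := by nlinarith
      nlinarith [Nat.mul_lt_mul_of_pos_left this (show 0 < (5 + m) * (m + 4) by positivity)]
    nlinarith
  intro m hm
  refine (le_of_involution_count (Y := M ⊓ Wσ.N) inf_le_left D ?_ ?_ ?_ ?_ (x := m) hm).2
  · rintro _ ⟨⟨⟨s, u, hu, rfl⟩, ⟨t, w, hw, rfl⟩⟩, rfl⟩
    refine ⟨?_, Wσ.le_N (T.pr_mem _ _)⟩
    show T.pr (tvec QA u, tvec QB w) ∈ M
    rw [T.pr_apply]
    exact mul_mem (S.kL_tvec_mem (hSA u hu)) (S.swap.kL_tvec_mem (hSB w hw))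
  · rintro _ ⟨⟨⟨s, u, hu, rfl⟩, ⟨t, w, hw, rfl⟩⟩, rfl⟩
    show T.pr (tvec QA u, tvec QB w) * T.pr (tvec QA u, tvec QB w) = 1
    rw [← map_mul, Prod.mk_mul_mk, tvec_sq, tvec_sq, Prod.mk_one_one, map_one]
  · rintro x hx _ ⟨⟨⟨s, u, hu, rfl⟩, ⟨t, w, hw, rfl⟩⟩, rfl⟩ hxd
    exact ⟨hx, S.fusion_pair (by rw [hu]; exact hdA) (by rw [hw]; exact hdB) (hSA u hu) (hSB w hw) hx
      hxd.2⟩
  intro Z hZ hpair
  rcases Z.eq_empty_or_nonempty with rfl | ⟨y₀, hy₀⟩
  · rw [Nat.card_of_isEmpty]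
    have := hbig 0 (Nat.zero_le _)
    omega
  obtain ⟨hy₀M, hy₀N', hy₀2⟩ := hZ y₀ hy₀
  have hy₀N : y₀ ∉ Wσ.N := fun h => hy₀N' ⟨hy₀M, h⟩
  let L : Subgroup (orth Q) :=
    M ⊓ Wσ.N ⊓ Wσ.N.comap (MulAut.conj y₀).toMonoidHom
  have hL : ∀ {l}, l ∈ L → l ∈ M ∧ l ∈ Wσ.N ∧ y₀ * l * y₀⁻¹ ∈ Wσ.N := fun {l} h => ⟨h.1.1, h.1.2, h.2⟩
  let K : Subgroup (orth QB) :=
    { carrier := {k | ∃ g, dick g = 1 ∧ T.pr (g, k) ∈ L}
      one_mem' := ⟨1, dick_one, by rw [Prod.mk_one_one, map_one]; exact one_mem _⟩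
      mul_mem' := by
        rintro k k' ⟨g, hg, h⟩ ⟨g', hg', h'⟩
        exact ⟨g * g', by rw [dick_mul_odd T.ndA T.two, hg, hg', mul_one],
          by rw [← Prod.mk_mul_mk, map_mul]; exact mul_mem h h'⟩
      inv_mem' := by
        rintro k ⟨g, hg, h⟩
        refine ⟨g⁻¹, ?_, by rw [← Prod.inv_mk, map_inv]; exact inv_mem h⟩
        have h3 : dick g⁻¹ * dick g = 1 := by
          rw [← dick_mul_odd T.ndA T.two, inv_mul_cancel, dick_one]
        rwa [hg, mul_one] at h3 }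
  -- a frame with all involutions in `Ω`
  obtain ⟨p₁, hp₁, hq₁⟩ := exists_oFam_norm (Q := QB) T.ndB T.two hdB 1 (by rw [S.b3]; omega)
  obtain ⟨b₂, hb₂, hb12, hS₂⟩ := exists_perp_omega T.ndB T.two S.b3 (hp₁.ne 0)
  obtain ⟨b₃, hf⟩ := exists_third T.ndB T.two S.b3 (hp₁.ne 0) hb₂ hb12
  set bf : Fin 3 → B := ![p₁ 0, b₂, b₃] with hbf
  have hprod : tvec QB (p₁ 0) * tvec QB b₂ = tvec QB b₃ :=
    tvec_mul_frame T.ndB T.two S.b3 hf (i := 0) (j := 1) (k := 2) (by decide) (by decide) (by decide)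
  have hSbf : ∀ j, tvec QB (bf j) ∈ commutator (orth QB) := by
    intro j
    fin_cases j
    · exact hSB _ (hq₁ 0)
    · exact hS₂
    · show tvec QB b₃ ∈ _
      rw [← hprod]
      exact mul_mem (hSB _ (hq₁ 0)) hS₂
  have hnot : ∀ j, tvec QB (bf j) ∉ K := by
    rintro j ⟨g, hg, hl⟩
    exact S.no_tvec_component hy₀M hy₀N (hf.ne j) (hSbf j) hg (hL hl).1 (hL hl).2.2
  have hK4 : 4 * Nat.card K ≤ Nat.card F * (Nat.card F ^ 2 - 1) := by
    let v4 : Option (Fin 3) → orth QB := fun o => o.elim 1 fun j => tvec QB (bf j)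
    have hd4 : ∀ o, dick (v4 o) = 1 := by
      rintro (_ | j)
      · exact dick_one
      · exact dick_tvec T.ndB T.two S.b3 (hf.ne j)
    have hdK : ∀ k ∈ K, dick k = 1 := by
      rintro k ⟨g, hg, hl⟩
      exact ((S.pr_omega hg).1 (S.hOmega (hL hl).1)).1
    let ψ : Option (Fin 3) × K → {k : orth QB // dick k = 1} := fun ok =>
      ⟨v4 ok.1 * (ok.2 : orth QB),
        by rw [dick_mul_odd T.ndB T.two, hd4, hdK _ ok.2.2, one_mul]⟩
    have hψ : Function.Injective ψ := by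
      rintro ⟨o, ⟨k, hk⟩⟩ ⟨o', ⟨k', hk'⟩⟩ h
      have h1 : v4 o * k = v4 o' * k' := congrArg Subtype.val h
      have hmem : (v4 o')⁻¹ * v4 o ∈ K := by
        have : (v4 o')⁻¹ * v4 o = k' * k⁻¹ := by
          rw [eq_mul_inv_iff_mul_eq, mul_assoc, h1, inv_mul_cancel_left]
        rw [this]
        exact mul_mem hk' (inv_mem hk)
      suffices ho : o = o' by
        subst ho
        have := mul_left_cancel h1
        subst this
        rfl
      by_contra hne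
      rcases o with _ | i <;> rcases o' with _ | j
      · exact hne rfl
      · exact hnot j (by simpa [v4] using inv_mem hmem)
      · exact hnot i (by simpa [v4] using hmem)
      · have hij : j ≠ i := fun h => hne (by rw [h])
        obtain ⟨l, hjl, hil⟩ : ∃ l : Fin 3, j ≠ l ∧ i ≠ l := by
          clear * -
          revert i j; decide
        refine hnot l ?_
        rw [← tvec_mul_frame T.ndB T.two S.b3 hf hij hjl hil]
        simpa [v4, inv_eq_of_mul_eq_one_right (tvec_sq (Q := QB) (bf j))] using hmem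
    have h1 := Nat.card_le_card_of_injective ψ hψ
    rw [Nat.card_prod, Nat.card_eq_fintype_card (α := Option (Fin 3)), Fintype.card_option,
      Fintype.card_fin] at h1
    exact h1.trans (H6.OmegaNine.card_rot T.ndB T.two S.b3)
  refine lt_of_le_of_lt ?_ (hbig _ hK4)
  have hyz : ∀ z ∈ Z, y₀ * z ∈ L := by
    intro z hz
    have h1 := (hpair y₀ hy₀ z hz)
    refine ⟨h1, ?_⟩
    show y₀ * (y₀ * z) * y₀⁻¹ ∈ Wσ.N
    have h2 : y₀ * (y₀ * z) * y₀⁻¹ = (y₀ * z)⁻¹ := by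
      rw [mul_inv_rev, inv_eq_of_mul_eq_one_right hy₀2, inv_eq_of_mul_eq_one_right (hZ z hz).2.2,
        ← mul_assoc, hy₀2, one_mul]
    rw [h2]
    exact inv_mem h1.2
  have hpart : ∀ (base : orth Q) (Z' : Set (orth Q)), Z' ⊆ Z →
      (∀ z ∈ Z', base * z ∈ L ∧ base * z ∈ T.PG) → Z'.ncard ≤ Nat.card K := by
    intro base Z' hsub hb
    have hex : ∀ z : Z', ∃ g k, dick g = 1 ∧ base * z = T.pr (g, k) := fun z => S.dec (hb z z.2).2
    choose g k hg he using hex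
    rw [← Nat.card_coe_set_eq]
    refine Nat.card_le_card_of_injective
      (fun z => (⟨k z, g z, hg z, he z ▸ (hb z z.2).1⟩ : K)) fun z z' hzz => Subtype.ext ?_
    have hkk : k z = k z' := congrArg Subtype.val hzz
    refine S.fibre_inj (hZ _ (hsub z.2)).1 (fun h => (hZ _ (hsub z.2)).2.1 ⟨(hZ _ (hsub z.2)).1, Wσ.le_N h⟩)
      (hZ _ (hsub z.2)).2.2 (hZ _ (hsub z'.2)).2.2 (hg z) (hg z') (he z) ?_
    rw [he z', hkk]
  let Z₀ : Set (orth Q) := {z | z ∈ Z ∧ y₀ * z ∈ T.PG}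
  let Z₁ : Set (orth Q) := {z | z ∈ Z ∧ y₀ * z ∉ T.PG}
  have h0 : Z₀.ncard ≤ Nat.card K := hpart y₀ Z₀ (fun z hz => hz.1) fun z hz => ⟨hyz z hz.1, hz.2⟩
  have h1 : Z₁.ncard ≤ Nat.card K := by
    rcases Z₁.eq_empty_or_nonempty with h | ⟨z₁, hz₁, hz₁P⟩
    · rw [h, Set.ncard_empty]; exact Nat.zero_le _
    refine hpart z₁ Z₁ (fun z hz => hz.1) fun z hz => ?_
    have e : z₁ * z = (y₀ * z₁)⁻¹ * (y₀ * z) := by
      rw [mul_inv_rev, mul_assoc, inv_mul_cancel_left, inv_eq_of_mul_eq_one_right (hZ z₁ hz₁).2.2]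
    rw [e]
    exact ⟨mul_mem (inv_mem (hyz z₁ hz₁)) (hyz z hz.1),
      Wσ.mul_mem_PG (inv_mem (hyz z₁ hz₁).1.2) (fun h => hz₁P (by simpa using inv_mem h))
        (hyz z hz.1).1.2 hz.2⟩
  have hU : Z = Z₀ ∪ Z₁ := by
    ext z
    simp only [Z₀, Z₁, Set.mem_union, Set.mem_setOf_eq]
    tauto
  rw [Nat.card_coe_set_eq, hU]
  exact (Set.ncard_union_le _ _).trans (by omega)

end Sq

/-- An overgroup in `Ω` of the stabiliser of the square of a three-dimensional space contains `Ω` or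
stabilises the factors. -/
theorem overgroup (T : TO Q QA QB pu) (Wσ : Sw T) {M : Subgroup (orth Q)} (a3 : finrank F A = 3)
    (b3 : finrank F B = 3) (q5 : 5 ≤ Nat.card F) (hOmega : M ≤ commutator (orth Q))
    (hN : ∀ m ∈ commutator (orth Q), m ∈ Wσ.N → m ∈ M) :
    commutator (orth Q) ≤ M ∨ ∀ m ∈ M, m ∈ Wσ.N := by
  have hV : 5 ≤ finrank F V := by rw [T.finrank_mul, a3, b3]; omega
  have hOver : T.Over M :=
    ⟨fun k hk => hN _ (T.kR_mem hk) (Wσ.le_N (T.kR_mem_PG k)),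
      fun g hg => hN _ (T.kL_mem hg) (Wσ.le_N (T.kL_mem_PG g))⟩
  by_cases hgood : T.NoLayer M
  · by_cases hgood' : T.swap.NoLayer M
    · exact Or.inr fun m hm => Sq.le_N (T := T) ⟨a3, b3, q5, hOmega, hN, hgood, hgood'⟩ hm
    · left
      simp only [TO.NoLayer, not_forall] at hgood'
      obtain ⟨e, he0, he, G, hG, hG0⟩ := hgood'
      exact T.swap.commutator_le_of_layer (TO.Over.swap T hOver) (by rw [b3]) (by rw [a3])
        (notPlusFour_of_ne (by rw [b3]; omega)) hV he he0 hG hG0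
  · left
    simp only [TO.NoLayer, not_forall] at hgood
    obtain ⟨e, he0, he, G, hG, hG0⟩ := hgood
    exact T.commutator_le_of_layer hOver (by rw [a3]) (by rw [b3])
      (notPlusFour_of_ne (by rw [a3]; omega)) hV he he0 hG hG0

end Cfsg.Agent.H1.OmegaNine.Tensor
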