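import Cfsg.Agent.H19.OrthTensor.Small.Main

/-!
The symmetric square `O₃ ⊗ O₃` with the exchange of the two factors: the stabiliser and the standing hypotheses.
-/

set_option autoImplicit false
set_option linter.unusedSectionVars false

namespace Cfsg.Agent.H1.OmegaNine.Tensor

open QuadraticMap hiding sq
open Cfsg.Agent.H5 Cfsg.Agent.H19.OrthTensor Module

section general

variable {F V : Type*} [Field F] [Finite F] [AddCommGroup V] [Module F V] [Finite V]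
  [FiniteDimensional F V] {Q : QuadraticForm F V}

/-- An isometry of order two has the rank of its eigenspace of the eigenvalue `-1`. -/
theorem rk_invol (h2 : (2 : F) ≠ 0) {g : orth Q} (hg : g * g = 1) : rk g = negDim g := by
  have h1 := rk_add_finrank_fixer g
  have h3 := finrank_eigen h2 hg
  simp only [negDim] at h3 ⊢
  omega

theorem dick_tvec (hQ : (polarBilin Q).Nondegenerate) (h2 : (2 : F) ≠ 0) (h3 : finrank F V = 3) {v : V}
    (hv : Q v ≠ 0) : dick (tvec Q v) = 1 := by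
  rw [tvec, dick_mul_odd hQ h2, dick_refl hQ hv, dick, rk_negOne h2, h3]
  decide

theorem mem_omega_iff (hQ : (polarBilin Q).Nondegenerate) (h2 : (2 : F) ≠ 0) {g : orth Q} :
    g ∈ commutator (orth Q) ↔ dick g = 1 ∧ spin Q g = 1 :=
  mem_commutator_iff hQ (Or.inl (card_ne_two h2))

theorem tvec_ne_one (hQ : (polarBilin Q).Nondegenerate) (h2 : (2 : F) ≠ 0) (h3 : finrank F V = 3) {v : V}
    (hv : Q v ≠ 0) : tvec Q v ≠ 1 := by
  intro h
  have h1 := negDim_tvec hQ h2 hv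
  rw [h, negDim_one h2, h3] at h1
  omega

end general

variable {F V A B : Type*} [Field F] [Finite F] [AddCommGroup V] [Module F V] [Finite V]
  [FiniteDimensional F V] [AddCommGroup A] [Module F A] [Finite A] [FiniteDimensional F A]
  [AddCommGroup B] [Module F B] [Finite B] [FiniteDimensional F B]
  {Q : QuadraticForm F V} {QA : QuadraticForm F A} {QB : QuadraticForm F B}
  {pu : A →ₗ[F] B →ₗ[F] V}

/-- An exchange of the two factors. -/
structure Sw (T : TO Q QA QB pu) where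
  σ : orth Q
  θ : A ≃ₗ[F] B
  c : F
  hc : c ≠ 0
  hθ : ∀ x, QB (θ x) = c * QA x
  hσ : ∀ x u, (σ : V ≃ₗ[F] V) (pu x u) = pu (θ.symm u) (θ x)

namespace Sw

variable {T : TO Q QA QB pu} (Wσ : Sw T)

/-- The exchange seen from the second factor. -/
def swap : Sw T.swap where
  σ := Wσ.σ
  θ := Wσ.θ.symm
  c := Wσ.c⁻¹
  hc := inv_ne_zero Wσ.hc
  hθ u := by
    obtain ⟨x, rfl⟩ := Wσ.θ.surjective u
    rw [LinearEquiv.symm_apply_apply, Wσ.hθ, inv_mul_cancel_left₀ Wσ.hc]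
  hσ u x := by
    rw [LinearMap.flip_apply, LinearMap.flip_apply, Wσ.hσ, LinearEquiv.symm_symm]

theorem σ_sq : Wσ.σ * Wσ.σ = 1 :=
  T.orth_ext_pu fun x u => by
    rw [orth_mul_apply, Wσ.hσ, Wσ.hσ, LinearEquiv.symm_apply_apply, LinearEquiv.apply_symm_apply]
    rfl

theorem σ_inv : Wσ.σ⁻¹ = Wσ.σ := inv_eq_of_mul_eq_one_right Wσ.σ_sq

/-- Transport of isometries between the factors. -/
def toB : orth QA →* orth QB where
  toFun g := ⟨Wσ.θ.symm.trans ((g : A ≃ₗ[F] A).trans Wσ.θ), fun u => by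
    show QB (Wσ.θ ((g : A ≃ₗ[F] A) (Wσ.θ.symm u))) = QB u
    rw [Wσ.hθ, orth_map, ← Wσ.hθ, LinearEquiv.apply_symm_apply]⟩
  map_one' := orth_ext fun u => Wσ.θ.apply_symm_apply u
  map_mul' g k := orth_ext fun u => by
    show Wσ.θ (((g * k : orth QA) : A ≃ₗ[F] A) (Wσ.θ.symm u)) =
      Wσ.θ ((g : A ≃ₗ[F] A) (Wσ.θ.symm (Wσ.θ ((k : A ≃ₗ[F] A) (Wσ.θ.symm u)))))
    rw [LinearEquiv.symm_apply_apply, orth_mul_apply]

theorem toB_apply (g : orth QA) (x : A) :
    ((Wσ.toB g : orth QB) : B ≃ₗ[F] B) (Wσ.θ x) = Wσ.θ ((g : A ≃ₗ[F] A) x) := by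
  show Wσ.θ ((g : A ≃ₗ[F] A) (Wσ.θ.symm (Wσ.θ x))) = _
  rw [LinearEquiv.symm_apply_apply]

theorem toB_swap (k : orth QB) : Wσ.toB (Wσ.swap.toB k) = k := orth_ext fun u => by
  show Wσ.θ (Wσ.θ.symm ((k : B ≃ₗ[F] B) (Wσ.θ.symm.symm (Wσ.θ.symm u)))) = _
  rw [LinearEquiv.symm_symm, LinearEquiv.apply_symm_apply, LinearEquiv.apply_symm_apply]

theorem conj_kL (g : orth QA) : Wσ.σ * T.kL g * Wσ.σ = T.kR (Wσ.toB g) :=
  T.orth_ext_pu fun x u => by
    rw [orth_mul_apply, orth_mul_apply, Wσ.hσ, T.kL_pu, Wσ.hσ, T.kR_pu, LinearEquiv.symm_apply_apply]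
    rfl

theorem conj_kR (k : orth QB) : Wσ.σ * T.kR k * Wσ.σ = T.kL (Wσ.swap.toB k) := Wσ.swap.conj_kL k

theorem conj_pr (g : orth QA) (k : orth QB) :
    Wσ.σ * T.pr (g, k) * Wσ.σ = T.pr (Wσ.swap.toB k, Wσ.toB g) := by
  have h : Wσ.σ * (T.kL g * T.kR k) * Wσ.σ =
      (Wσ.σ * T.kL g * Wσ.σ) * (Wσ.σ * T.kR k * Wσ.σ) := by
    calc Wσ.σ * (T.kL g * T.kR k) * Wσ.σ = Wσ.σ * T.kL g * (1 * T.kR k) * Wσ.σ := by group
      _ = _ := by rw [← Wσ.σ_sq]; group
  rw [T.pr_apply, T.pr_apply, h, Wσ.conj_kL, Wσ.conj_kR, (T.kR_comm _ _).eq]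

theorem conj_mem {m : orth Q} (hm : m ∈ T.PG) : Wσ.σ * m * Wσ.σ ∈ T.PG := by
  obtain ⟨⟨g, k⟩, rfl⟩ := hm
  rw [Wσ.conj_pr]
  exact T.pr_mem _ _

/-- The stabiliser of the pair of factors. -/
def N : Subgroup (orth Q) where
  carrier := {m | m ∈ T.PG ∨ m * Wσ.σ ∈ T.PG}
  one_mem' := Or.inl (one_mem _)
  mul_mem' := by
    rintro a b (ha | ha) (hb | hb)
    · exact Or.inl (mul_mem ha hb)
    · exact Or.inr (by rw [mul_assoc]; exact mul_mem ha hb)
    · exact Or.inr (by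
        have := mul_mem ha (Wσ.conj_mem hb)
        have e : a * b * Wσ.σ = a * Wσ.σ * (Wσ.σ * b * Wσ.σ) := by
          simp only [mul_assoc]
          rw [← mul_assoc Wσ.σ Wσ.σ, Wσ.σ_sq, one_mul]
        rwa [e])
    · exact Or.inl (by
        have := mul_mem ha (Wσ.conj_mem hb)
        have e : a * Wσ.σ * (Wσ.σ * (b * Wσ.σ) * Wσ.σ) = a * b := by
          simp only [mul_assoc]
          rw [← mul_assoc Wσ.σ Wσ.σ, Wσ.σ_sq, mul_one, one_mul]
        rwa [e] at this)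
  inv_mem' := by
    rintro a (ha | ha)
    · exact Or.inl (inv_mem ha)
    · exact Or.inr (by
        have := Wσ.conj_mem (inv_mem ha)
        rwa [mul_inv_rev, Wσ.σ_inv, ← mul_assoc, Wσ.σ_sq, one_mul] at this)

theorem mem_N {m : orth Q} : m ∈ Wσ.N ↔ m ∈ T.PG ∨ m * Wσ.σ ∈ T.PG := Iff.rfl

theorem le_N : T.PG ≤ Wσ.N := fun _ h => Or.inl h

end Sw

variable (T : TO Q QA QB pu)

/-- The standing hypotheses. -/
structure Sq (Wσ : Sw T) (M : Subgroup (orth Q)) : Prop where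
  a3 : finrank F A = 3
  b3 : finrank F B = 3
  q5 : 5 ≤ Nat.card F
  hOmega : M ≤ commutator (orth Q)
  hN : ∀ m ∈ commutator (orth Q), m ∈ Wσ.N → m ∈ M
  good : T.NoLayer M
  good' : T.swap.NoLayer M

theorem PG_swap : T.swap.PG = T.PG := by
  ext m
  constructor
  · rintro ⟨⟨k, g⟩, rfl⟩
    exact ⟨(g, k), (T.kR_comm k g).symm.eq⟩
  · rintro ⟨⟨g, k⟩, rfl⟩
    exact ⟨(k, g), (T.kR_comm k g).eq⟩

namespace Sq

variable {T} {Wσ : Sw T} {M : Subgroup (orth Q)} (S : Sq T Wσ M)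
include S

theorem swap : Sq T.swap Wσ.swap M where
  a3 := S.b3
  b3 := S.a3
  q5 := S.q5
  hOmega := S.hOmega
  hN m hm h := S.hN m hm (by
    rcases h with h | h
    · exact Or.inl (PG_swap T ▸ h)
    · exact Or.inr (PG_swap T ▸ h))
  good := S.good'
  good' := S.good

theorem hA : 3 ≤ finrank F A := S.a3.ge

theorem hB : 3 ≤ finrank F B := S.b3.ge

theorem hOver : T.Over M :=
  ⟨fun k hk => S.hN _ (T.kR_mem hk) (Wσ.le_N (T.kR_mem_PG k)),
    fun g hg => S.hN _ (T.kL_mem hg) (Wσ.le_N (T.kL_mem_PG g))⟩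

theorem std : T.Std M :=
  T.std_of_aniso S.hOver S.good S.hA (fun _ => by have := S.q5; omega) (lineAniso_three T.ndB S.b3)

theorem mem_PG {m : orth Q} (h : IsPureT pu m) : m ∈ T.PG :=
  T.mem_PG_of_isPureT S.a3 (by rw [S.b3]; omega) h

theorem pr_inj {g g' : orth QA} {k k' : orth QB} (hg : dick g = 1) (hg' : dick g' = 1)
    (h : T.pr (g, k) = T.pr (g', k')) : g = g' ∧ k = k' :=
  T.pr_inj S.a3 (by rw [S.b3]; omega) hg hg' h

/-- Every pure element is a rotation times an isometry. -/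
theorem dec {m : orth Q} (hp : m ∈ T.PG) : ∃ g k, dick g = 1 ∧ m = T.pr (g, k) := by
  obtain ⟨⟨g, k⟩, rfl⟩ := hp
  rcases Int.units_eq_one_or (dick g) with h | h
  · exact ⟨g, k, h, rfl⟩
  · refine ⟨negOne QA * g, negOne QB * k, ?_, ?_⟩
    · rw [dick_mul_odd T.ndA T.two, h, dick, rk_negOne T.two, S.a3]
      decide
    · rw [show ((negOne QA * g, negOne QB * k) : orth QA × orth QB) =
        (negOne QA, negOne QB) * (g, k) from rfl, map_mul, T.pr_negOne, one_mul]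

theorem dick_spin_kR (k : orth QB) :
    dick (T.kR k) = dick k ∧ (dick k = 1 → spin Q (T.kR k) = spin QB k) := by
  obtain ⟨δ, hδ⟩ := T.sign_kR (by rw [S.a3]; omega)
  obtain ⟨h1, h2⟩ := hδ k
  rw [S.a3] at h1 h2
  refine ⟨?_, fun hd => ?_⟩
  · rw [h1]; rcases Int.units_eq_one_or (dick k) with h | h <;> rw [h] <;> decide
  · rw [h2, if_pos hd, one_mul]
    rcases Int.units_eq_one_or (spin QB k) with h | h <;> rw [h] <;> decide

theorem dick_spin_kL (g : orth QA) :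
    dick (T.kL g) = dick g ∧ (dick g = 1 → spin Q (T.kL g) = spin QA g) :=
  S.swap.dick_spin_kR g

/-- A rotation times an isometry lies in `Ω` when the second is a rotation with the same spinor norm. -/
theorem pr_omega {g : orth QA} {k : orth QB} (hg : dick g = 1) :
    T.pr (g, k) ∈ commutator (orth Q) ↔ dick k = 1 ∧ spin QA g * spin QB k = 1 := by
  rw [mem_omega_iff T.ndV T.two, T.pr_apply, dick_mul_odd T.ndV T.two, (S.dick_spin_kL g).1,
    (S.dick_spin_kR k).1, hg, one_mul, map_mul, (S.dick_spin_kL g).2 hg]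
  constructor <;> rintro ⟨h1, h2⟩
  · exact ⟨h1, by rwa [(S.dick_spin_kR k).2 h1] at h2⟩
  · exact ⟨h1, by rwa [(S.dick_spin_kR k).2 h1]⟩

theorem kL_tvec_omega {v : A} (hv : QA v ≠ 0) :
    T.kL (tvec QA v) ∈ commutator (orth Q) ↔ tvec QA v ∈ commutator (orth QA) := by
  have hd := dick_tvec T.ndA T.two S.a3 hv
  rw [mem_omega_iff T.ndV T.two, mem_omega_iff T.ndA T.two, (S.dick_spin_kL _).1, hd,
    (S.dick_spin_kL _).2 hd]

theorem kL_tvec_mem {v : A} (ht : tvec QA v ∈ commutator (orth QA)) :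
    T.kL (tvec QA v) ∈ M :=
  S.hOver.left _ ht

end Sq

end Cfsg.Agent.H1.OmegaNine.Tensor
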